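import Cfsg.Agent.H6.ClH1
set_option maxRecDepth 100000
set_option Elab.async false
namespace Cfsg.Agent.H6.Cl.G23
open Cfsg.Agent.H6
universe u

theorem isoG {F : Type u} [Field F] [Fintype F] (hF : Fintype.card F = 3) : Nonempty (GG ≃* Lie.chevG2.group F) := by
  haveI : CharP F 3 := charP_of_card (k := 1) Nat.prime_three hF
  have hs := semP (F := F) 3 (by norm_num)
  obtain ⟨g0, hg0⟩ := mrep_chev (D := Lie.chevG2) hs (p := 3) (by norm_num) le_rfl (fun _ _ => rfl) (ml := bG) (inv := biG) (by decide +kernel) (List.forall_mem_cons.2 ⟨⟨_, _, xo0⟩, (List.forall_mem_cons.2 ⟨⟨_, _, xo1⟩, (List.forall_mem_cons.2 ⟨⟨_, _, xo2⟩, (List.forall_mem_cons.2 ⟨⟨_, _, xo3⟩, (List.forall_mem_cons.2 ⟨⟨_, _, xo4⟩, (List.forall_mem_cons.2 ⟨⟨_, _, xo5⟩, (List.forall_mem_cons.2 ⟨⟨_, _, xo6⟩, (List.forall_mem_cons.2 ⟨⟨_, _, xo7⟩, (by simp)⟩)⟩)⟩)⟩)⟩)⟩)⟩)⟩)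
  obtain ⟨g, hg⟩ := hg0.words (ml := mG) (ws := wG) (by decide +kernel)
  have hc : Nat.card (Lie.chevG2.group F) = 4245696 := by
    rw [S1059.result hF]; norm_num
  exact bdG.equivU satG (hg.sat (il := il) (Rl := RG) (by decide +kernel)) topG cardG simpleG hc (u := [0]) (w := []) (by decide +kernel) (hg.nev (injP 3) (i := 0) (j := 0) (by decide +kernel))

end Cfsg.Agent.H6.Cl.G23
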