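/- The minimal index of a proper subgroup of `PSU(3, 5)`. -/
import Cfsg.Agent.H6.ClV1

set_option maxRecDepth 100000
namespace Cfsg.Agent.H6
open MulAction

namespace U35
variable {G : Type*} [Group G] [Finite G]

theorem card_norm (hG : Nat.card G = 126000) {a : G} (ha : orderOf a = 7)
    (hc : Nat.card (Subgroup.centralizer ({a} : Set G)) ≤ 7) [Fact (Nat.Prime 7)] (T : Sylow 7 G) :
    Nat.card (Subgroup.normalizer ((T : Subgroup G) : Set G)) = 21 := by
  have f7 : 7 ^ (Nat.card G).factorization 7 = 7 := by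
    rw [hG, show 126000 = 7 * 18000 from rfl, Nat.factorization_mul (by norm_num) (by norm_num)]
    simp [Nat.Prime.factorization (by norm_num : Nat.Prime 7), Nat.factorization_eq_zero_of_not_dvd]
  have cz : Nat.card (Subgroup.zpowers a) = 7 := by rw [Nat.card_zpowers, ha]
  let S : Sylow 7 G := Sylow.ofCard (Subgroup.zpowers a) (cz.trans f7.symm)
  have h1 : _ = (Subgroup.normalizer ((S : Subgroup G) : Set G)).index := Sylow.card_eq_index_normalizer S
  have h2 : _ = (Subgroup.normalizer ((T : Subgroup G) : Set G)).index := Sylow.card_eq_index_normalizer T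
  have h3 := card_sylow_modEq_one 7 G
  have h4 := (Subgroup.normalizer ((S : Subgroup G) : Set G)).index_mul_card
  have h5 := (Subgroup.normalizer ((T : Subgroup G) : Set G)).index_mul_card
  have h6 := (Subgroup.zpowers a).normalizerMonoidHom.ker.index_mul_card
  rw [Subgroup.index_ker] at h6
  have h7 : Nat.card (Subgroup.zpowers a).normalizerMonoidHom.range ∣ 6 := by
    have := Subgroup.card_subgroup_dvd_card (Subgroup.zpowers a).normalizerMonoidHom.range
    rwa [IsCyclic.card_mulAut, cz] at this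
  have h8 : Nat.card (Subgroup.zpowers a).normalizerMonoidHom.ker = 7 := by
    rw [Subgroup.normalizerMonoidHom_ker, Nat.card_congr (Subgroup.subgroupOfEquivOfLe
      (Subgroup.centralizer_le_normalizer _)).toEquiv]
    apply le_antisymm
    · exact (Subgroup.card_le_of_le (Subgroup.centralizer_le (by simp))).trans hc
    · exact cz ▸ Subgroup.card_le_of_le (Subgroup.le_centralizer _)
  rw [h8] at h6
  change _ = Nat.card (Subgroup.normalizer ((S : Subgroup G) : Set G)) at h6
  rw [← h1, ← h6, hG] at h4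
  rw [← h2, hG] at h5
  unfold Nat.ModEq at h3
  have h9 := Nat.le_of_dvd (by norm_num) h7
  generalize Nat.card (Subgroup.zpowers a).normalizerMonoidHom.range = r at *
  have : Nat.card (Sylow 7 G) = 6000 := by interval_cases r <;> omega
  rw [this] at h5
  omega

theorem sub7 (hG : Nat.card G = 126000) [Fact (Nat.Prime 7)]
    (hN : ∀ T : Sylow 7 G, Nat.card (Subgroup.normalizer ((T : Subgroup G) : Set G)) = 21) (H : Subgroup G)
    (hH : Nat.card H = 6300 ∨ Nat.card H = 5040 ∨ Nat.card H = 3150) : False := by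
  have f7 : ∀ m, ¬ 7 ∣ m → 7 ^ (7 * m).factorization 7 = 7 := fun m hm => by
    rw [Nat.factorization_mul (by norm_num) (by rintro rfl; simp at hm)]
    simp [Nat.Prime.factorization (by norm_num : Nat.Prime 7), Nat.factorization_eq_zero_of_not_dvd hm]
  obtain ⟨S⟩ : Nonempty (Sylow 7 H) := inferInstance
  have c1 : Nat.card S = 7 := by
    rw [Sylow.card_eq_multiplicity]
    rcases hH with h | h | h <;> rw [h]
    exacts [f7 900 (by norm_num), f7 720 (by norm_num), f7 450 (by norm_num)]
  let T : Sylow 7 G := Sylow.ofCard ((S : Subgroup H).map H.subtype) (by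
    rw [Subgroup.card_map_of_injective H.subtype_injective, c1, hG]; exact (f7 18000 (by norm_num)).symm)
  have h1 := Subgroup.card_dvd_of_le (Subgroup.le_normalizer_map (H := (S : Subgroup H)) H.subtype)
  rw [Subgroup.card_map_of_injective H.subtype_injective] at h1
  have h2 : Nat.card (Subgroup.normalizer ((S : Subgroup H) : Set H)) ∣ 21 := hN T ▸ h1
  have h3 := card_sylow_modEq_one 7 H
  have h4 := (Subgroup.normalizer ((S : Subgroup H) : Set H)).index_mul_card
  have h0 : _ = (Subgroup.normalizer ((S : Subgroup H) : Set H)).index := Sylow.card_eq_index_normalizer S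
  rw [← h0] at h4
  unfold Nat.ModEq at h3
  have h5 := Nat.le_of_dvd (by norm_num) h2
  generalize Nat.card (Subgroup.normalizer ((S : Subgroup H) : Set H)) = r at *
  interval_cases r <;> omega

theorem min_index [IsSimpleGroup G] {Ω : Type*} [MulAction G Ω] [Finite Ω] (hG : Nat.card G = 126000)
    (hΩ : Nat.card Ω = 126) {x0 y0 : Ω} (h1 : orbit G x0 = Set.univ) {K : Subgroup G} (hK : K ≤ stabilizer G x0)
    (h2 : (orbit K y0).ncard = 125) {a : G} (ha : orderOf a = 7)
    (hc : Nat.card (Subgroup.centralizer ({a} : Set G)) ≤ 7) (H : Subgroup G) (hH : H ≠ ⊤) : 50 ≤ H.index := by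
  classical
  haveI : Fact (Nat.Prime 7) := ⟨by norm_num⟩
  haveI : Fact (Nat.Prime 5) := ⟨by norm_num⟩
  by_contra hn
  have hm := H.index_mul_card
  rw [hG] at hm
  have tr : ∀ x, ∃ g : G, g • x0 = x := fun x => h1.ge (Set.mem_univ x)
  have st : ∀ x : Ω, Nat.card (stabilizer G x) = 1000 := fun x => by
    have := card_eq_ncard_orbit_mul (⊤ : Subgroup G) x
    obtain ⟨g, rfl⟩ := tr x
    rw [orbit_top, top_inf_eq, Subgroup.card_top, hG, orbit_smul, h1, Set.ncard_univ, hΩ] at this
    omega
  have two : ∀ (g : G) (x y : Ω), x ≠ y → g • x = x → g • y = y → orderOf g ∣ 8 := by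
    have e0 : y0 ≠ x0 := fun e => by
      have : orbit K y0 ⊆ {x0} := by rintro _ ⟨k, rfl⟩; rw [e]; exact hK k.2
      have := Set.ncard_le_ncard this
      rw [Set.ncard_singleton] at this; omega
    have e1 : orbit (stabilizer G x0) y0 = {x0}ᶜ := by
      refine Set.eq_of_subset_of_ncard_le ?_ ?_
      · rintro _ ⟨k, rfl⟩ e
        exact e0 (smul_left_cancel (k : G) (e.trans k.2.symm))
      · have := Set.ncard_add_ncard_compl ({x0} : Set Ω)
        have h3 : orbit K y0 ⊆ orbit (stabilizer G x0) y0 := by rintro _ ⟨k, rfl⟩; exact ⟨⟨k, hK k.2⟩, rfl⟩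
        have := Set.ncard_le_ncard h3
        rw [Set.ncard_singleton] at *; omega
    have e2 : ∀ (g : G) (y : Ω), x0 ≠ y → g • x0 = x0 → g • y = y → orderOf g ∣ 8 := fun g y hy a b => by
      have := card_eq_ncard_orbit_mul (stabilizer G x0) y
      have e3 := Set.ncard_add_ncard_compl ({x0} : Set Ω)
      rw [st, (orbit_eq_iff.2 (e1.ge hy.symm)), e1] at this
      rw [Set.ncard_singleton, hΩ] at e3
      have e4 : Nat.card ↥(stabilizer G x0 ⊓ stabilizer G y) = 8 := by
        rw [show ({x0}ᶜ : Set Ω).ncard = 125 by omega] at this; omega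
      rw [← e4]
      exact Subgroup.orderOf_dvd_natCard _ ⟨a, b⟩
    intro g x y hxy a b
    obtain ⟨k, rfl⟩ := tr x
    have := e2 (k⁻¹ * g * k) (k⁻¹ • y) (fun e => hxy (by rw [e, smul_inv_smul]))
      (by rw [mul_smul, mul_smul, a, inv_smul_smul]) (by rw [mul_smul, mul_smul, smul_inv_smul, b])
    rwa [show k⁻¹ * g * k = MulAut.conj k⁻¹ g by simp, MulEquiv.orderOf_eq] at this
  have h15 : 15 ≤ H.index := by
    by_contra c
    have e : H.normalCore = ⊥ := (H.normalCore_normal.eq_bot_or_eq_top).resolve_right fun e =>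
      hH (top_le_iff.1 (e ▸ H.normalCore_le))
    rw [Subgroup.normalCore_eq_ker, MonoidHom.ker_eq_bot_iff] at e
    have := Subgroup.card_dvd_of_injective _ e
    rw [Nat.card_perm, hG] at this
    exact absurd (this.trans (Nat.factorial_dvd_factorial (show H.index ≤ 14 by omega))) (by decide +kernel)
  have key : H.index ∣ 1000 := by
    by_cases h25 : 5 ^ 2 ∣ Nat.card H
    swap
    · have : 25 ∣ H.index := by
        generalize H.index = n at *
        generalize Nat.card H = m at *
        interval_cases n <;> omega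
      have : H.index = 25 := by omega
      rw [this]; norm_num
    obtain ⟨Q0, hQ0⟩ := Sylow.exists_subgroup_card_pow_prime 5 h25
    have hQ : IsPGroup 5 Q0 := IsPGroup.of_card hQ0
    obtain ⟨x, hx⟩ := hQ.nonempty_fixed_point_of_prime_not_dvd_card Ω (by rw [hΩ]; norm_num)
    let Y : SubMulAction Q0 Ω := ⟨{y | y ∈ orbit H x ∧ y ≠ x}, fun q y hy => ⟨by
      obtain ⟨k, rfl⟩ := hy.1
      exact ⟨q * k, mul_smul _ _ _⟩, fun e => hy.2 (smul_left_cancel q (e.trans (hx q).symm))⟩⟩
    have fr : ∀ y : Y, stabilizer Q0 y = ⊥ := fun y => (Subgroup.eq_bot_iff_forall _).2 fun q hq => by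
      have a1 := two ((q : H) : G) x y y.2.2.symm (hx q) (congrArg Subtype.val hq)
      have a2 := orderOf_dvd_natCard q
      rw [Subgroup.orderOf_coe, Subgroup.orderOf_coe] at a1
      rw [hQ0] at a2
      exact orderOf_eq_one_iff.1 (Nat.eq_one_of_dvd_coprimes (by norm_num : Nat.Coprime 8 (5 ^ 2)) a1 a2)
    have c1 := Nat.card_congr (selfEquivOrbitsQuotientProd fr)
    rw [Nat.card_prod, hQ0] at c1
    have c2 : (orbit H x).ncard = Nat.card Y + 1 := by
      rw [← Set.ncard_diff_singleton_add_one (mem_orbit_self (M := H) x)]; rfl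
    have c3 := card_eq_ncard_orbit_mul H x
    have c4 := Subgroup.card_dvd_of_le (inf_le_right : H ⊓ stabilizer G x ≤ _)
    rw [st] at c4
    have c5 : (orbit H x).ncard ≤ 126 := hΩ ▸ Set.ncard_le_card _
    have c6 : (orbit H x).ncard ∣ 126000 := by rw [← hm, c3]; exact Dvd.dvd.mul_left (dvd_mul_right _ _) _
    have c7 := Nat.le_of_dvd (by norm_num) c4
    rw [c3] at hm
    generalize Nat.card (Quotient (orbitRel Q0 Y)) = k at *
    have : k ≤ 5 := by omega
    rw [c1] at c2
    rw [c2] at hm c6
    interval_cases k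
    · nlinarith
    · norm_num at c6
    · norm_num at c6
    · norm_num at c6
    · norm_num at c6
    · exact Dvd.intro (Nat.card ↥(H ⊓ stabilizer G x)) (by nlinarith)
  refine sub7 hG (card_norm hG ha hc) H ?_
  generalize H.index = n at *
  generalize Nat.card H = m at *
  interval_cases n <;> omega

end U35

namespace Cl.U35

theorem ordA : orderOf (wp gU [0]) = 7 :=
  haveI : Fact (Nat.Prime 7) := ⟨by norm_num⟩
  orderOf_eq_prime (pow_one_of heqU (a := [0]) (by decide +kernel)) (modelU.ne_one_of_mp (p := 0) (by decide +kernel))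

theorem centA : Nat.card (Subgroup.centralizer ({wp gU [0]} : Set GU)) ≤ 7 := by
  rw [← ceA]
  refine le_of_le_of_eq (Subgroup.card_le_of_le (cl_le.2 ?_)) ((Nat.card_zpowers _).trans ordA)
  rw [lw_eq]
  refine List.forall_mem_cons.2 ⟨Subgroup.mem_zpowers _, List.forall_mem_singleton.2 ?_⟩
  rw [show wp gU [1] = (wp gU [0])⁻¹ from eq_inv_of_mul_eq_one_left (by
    rw [← wp_append]; exact heqU _ [] (by decide +kernel))]
  exact Subgroup.inv_mem _ (Subgroup.mem_zpowers _)

theorem minU (H : Subgroup GU) (hH : H ≠ ⊤) : 50 ≤ H.index :=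
  haveI := simpleU
  U35.min_index (Ω := Fin 126) cardU (by simp) (x0 := finX 126 0) (y0 := finX 126 32)
    (((orbit_of_cl topU _).trans (modelU.toIsPre.orbit_of_transChk (r := 200) (by decide +kernel))).trans
      (Set.eq_univ_of_forall fun i => ⟨i, i.2, Fin.ext (Nat.mod_eq_of_lt i.2)⟩))
    (modelU.toIsPre.cl_le_stab (ws := [[0,0,0,4,6,2],[1,1,5,0,6,4,0,0]]) (by decide +kernel))
    (modelU.ncard_orbit (k := 4) (r := 200) (by decide +kernel)) ordA centA H hH

theorem exU : ∃ H : Subgroup GU, H.index = 50 := by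
  refine ⟨cl gU (lw [0,1,2,3,4,5]), ?_⟩
  have := (cl gU (lw [0,1,2,3,4,5])).index_mul_card
  rw [cardU, le_antisymm (bd149.of_imp imp154 _ _ satU).2 lbA7] at this
  exact Nat.eq_of_mul_eq_mul_right (by norm_num) (this.trans (by norm_num))

theorem mainW {F : Type*} [Field F] [Fintype F] (hF : Fintype.card F = 25) :
    (∀ H : Subgroup (PSU 3 F 5), H ≠ ⊤ → 50 ≤ H.index) ∧ ∃ H : Subgroup (PSU 3 F 5), H.index = 50 := by
  obtain ⟨e⟩ := isoU hF
  refine ⟨fun H hH => ?_, ?_⟩
  · rw [← Subgroup.index_comap_of_surjective H (f := e.toMonoidHom) e.surjective]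
    refine minU _ fun c => hH ?_
    rw [← Subgroup.map_comap_eq_self_of_surjective (f := e.toMonoidHom) e.surjective H, c]
    exact Subgroup.map_top_of_surjective _ e.surjective
  · obtain ⟨H, hH⟩ := exU
    exact ⟨H.comap e.symm.toMonoidHom, (Subgroup.index_comap_of_surjective H e.symm.surjective).trans hH⟩

end Cl.U35
end Cfsg.Agent.H6
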