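/- The field with 25 elements. -/
import Cfsg.Agent.H6.Mat2

namespace Cfsg.Agent.H6
open Polynomial
variable {F : Type*} [Field F]

theorem exists_w25 [Fintype F] [CharP F 5] (h : Fintype.card F = 25) : ∃ ω : F, ω ^ 2 - 2 = 0 := by
  have h5 : (5 : F) = 0 := CharP.cast_eq_zero F 5
  refine exists_root (X ^ 23 + C 2 * X ^ 21 + C 4 * X ^ 19 + C 8 * X ^ 17 + C 16 * X ^ 15 + C 32 * X ^ 13 + C 64 * X ^ 11 +
    C 128 * X ^ 9 + C 256 * X ^ 7 + C 512 * X ^ 5 + C 1024 * X ^ 3 + C 2048 * X) (Monic.ne_zero (by monicity!))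
    (by rw [h]; exact lt_of_le_of_lt (by compute_degree) (by norm_num : 23 < 25)) _ fun x => ?_
  rw [h]; simp only [eval_add, eval_mul, eval_pow, eval_X, eval_C]
  linear_combination (819 * x) * h5

theorem sem25 [CharP F 5] {ω : F} (h : ω ^ 2 - 2 = 0) : (cd2 5 2 0).Sem (val2 5 ω) :=
  sem2 (by norm_num) (by push_cast; linear_combination h)

theorem inj25 [CharP F 5] {ω : F} (h : ω ^ 2 - 2 = 0) :
    ∀ a < (cd2 5 2 0).q, ∀ b < (cd2 5 2 0).q, val2 5 ω a = val2 5 ω b → a = b :=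
  inj2 (by norm_num) fun a e => by
    have h1 : ((a ^ 2 + 3 : ℕ) : F) = 0 := by
      have h5 : (5 : F) = 0 := CharP.cast_eq_zero F 5
      push_cast; rw [← e]; linear_combination h + h5
    rw [CharP.cast_eq_zero_iff F 5] at h1
    have : a % 5 = 0 ∨ a % 5 = 1 ∨ a % 5 = 2 ∨ a % 5 = 3 ∨ a % 5 = 4 := by omega
    have h2 := Nat.pow_mod a 2 5
    rcases this with c | c | c | c | c <;> rw [c] at h2 <;> omega

end Cfsg.Agent.H6
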