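import Cfsg.Agent.H6.Fi24b2
import Cfsg.Agent.H6.Fi24b3
import Cfsg.Agent.H6.Fi24b4
import Cfsg.Agent.H6.Fi24b5
import Cfsg.Agent.H6.Fi24b6
import Cfsg.Agent.H6.Fi24b7
import Cfsg.Agent.H6.Fi24b8
import Cfsg.Agent.H6.Fi24b9
import Cfsg.Agent.H6.Fi24b10
import Cfsg.Agent.H6.Fi24b11
import Cfsg.Agent.H6.Fi24b12
import Cfsg.Agent.H6.Fi24b13
set_option maxRecDepth 100000
set_option Elab.async false
namespace Cfsg.Agent.H6.Fi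
open Cfsg.Agent.H6
universe u

noncomputable def m1153l : List Net := [m1153n0,m1153n1,m1153n2,m1153n3,m1153n4,m1153n5,m1153n6,m1153n7,m1153n8,m1153n9,m1153n10,m1153n11]
noncomputable abbrev m1153 : ℕ → Net := lk Net.nil m1153l
theorem m1153ok : NetsOk 920808 m1153 vT := netsOk_of' (List.forall_mem_cons.2 ⟨m1153n0ok, (List.forall_mem_cons.2 ⟨m1153n1ok, (List.forall_mem_cons.2 ⟨m1153n2ok, (List.forall_mem_cons.2 ⟨m1153n3ok, (List.forall_mem_cons.2 ⟨m1153n4ok, (List.forall_mem_cons.2 ⟨m1153n5ok, (List.forall_mem_cons.2 ⟨m1153n6ok, (List.forall_mem_cons.2 ⟨m1153n7ok, (List.forall_mem_cons.2 ⟨m1153n8ok, (List.forall_mem_cons.2 ⟨m1153n9ok, (List.forall_mem_cons.2 ⟨m1153n10ok, (List.forall_mem_cons.2 ⟨m1153n11ok, (by simp)⟩)⟩)⟩)⟩)⟩)⟩)⟩)⟩)⟩)⟩)⟩)⟩)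

end Cfsg.Agent.H6.Fi
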