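import Cfsg.Agent.H6.Fi24b15
import Cfsg.Agent.H6.Fi24b16
import Cfsg.Agent.H6.Fi24b17
set_option maxRecDepth 100000
set_option Elab.async false
namespace Cfsg.Agent.H6.Fi
open Cfsg.Agent.H6
universe u

theorem m1153s0 : Sat io [] (finG m1153ok) := fin_sat_nil' _ (k := 20) (n := 12) (by decide +kernel) (((((((((((iv1154.trans iv1155).trans iv1156).trans iv1157).trans iv1158).trans iv1159).trans iv1160).trans iv1161).trans iv1162).trans iv1163).trans iv1164).trans iv1165)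
noncomputable def C1166 : List (List ℕ) := [r0,r1,r2,r3,r4,r5,r6,r7,r8,r9,r10,r11,r12,r13,r14,r15,r16,r17,r18,r19,r20,r21,r22,r23,r24,r25,r26,r27,r28,r29,r30,r31,r32,r33,r34,r35,r36,r37,r38,r39,r40,r41,r42,r43,r44,r45,r46,r47,r48,r49,r50,r51,r52,r53,r54,r55,r56,r57,r58,r59,r60,r61,r62,r63,r64,r65,r66,r67,r70]

end Cfsg.Agent.H6.Fi
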