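import Cfsg.Agent.H6.Fi24c8
set_option maxRecDepth 100000
set_option Elab.async false
namespace Cfsg.Agent.H6.Fi
open Cfsg.Agent.H6
universe u

theorem iv200004 : Rng (fun l => eqChk 306936 19 m200002 vT [io l, l] []) 1 2 := Rng.of_chk (c := 1) (by decide +kernel)
theorem iv200007 : Rng (fun l => eqChk 306936 19 m200002 vT [io l, l] []) 4 5 := Rng.of_chk (c := 1) (by decide +kernel)
theorem iv200010 : Rng (fun l => eqChk 306936 19 m200002 vT [io l, l] []) 7 8 := Rng.of_chk (c := 1) (by decide +kernel)
theorem iv200013 : Rng (fun l => eqChk 306936 19 m200002 vT [io l, l] []) 10 11 := Rng.of_chk (c := 1) (by decide +kernel)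

end Cfsg.Agent.H6.Fi
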