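import Cfsg.Agent.H6.Fi24c8
set_option maxRecDepth 100000
set_option Elab.async false
namespace Cfsg.Agent.H6.Fi
open Cfsg.Agent.H6
universe u

theorem iv200005 : Rng (fun l => eqChk 306936 19 m200002 vT [io l, l] []) 2 3 := Rng.of_chk (c := 1) (by decide +kernel)
theorem iv200008 : Rng (fun l => eqChk 306936 19 m200002 vT [io l, l] []) 5 6 := Rng.of_chk (c := 1) (by decide +kernel)
theorem iv200011 : Rng (fun l => eqChk 306936 19 m200002 vT [io l, l] []) 8 9 := Rng.of_chk (c := 1) (by decide +kernel)
theorem iv200014 : Rng (fun l => eqChk 306936 19 m200002 vT [io l, l] []) 11 12 := Rng.of_chk (c := 1) (by decide +kernel)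

end Cfsg.Agent.H6.Fi
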