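import Cfsg.Agent.H6.Fi24c9
import Cfsg.Agent.H6.Fi24c10
import Cfsg.Agent.H6.Fi24c11
set_option maxRecDepth 100000
set_option Elab.async false
namespace Cfsg.Agent.H6.Fi
open Cfsg.Agent.H6
universe u

theorem m200002s0 : Sat io [] (finG m200002ok) := fin_sat_nil' _ (k := 19) (n := 12) (by decide +kernel) (((((((((((iv200003.trans iv200004).trans iv200005).trans iv200006).trans iv200007).trans iv200008).trans iv200009).trans iv200010).trans iv200011).trans iv200012).trans iv200013).trans iv200014)
noncomputable def S200015 : List (List ℕ) := lapp [r66] RFi24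
theorem imp200017 : Imp.{u} io RFi24 C1118 := Imp.of_chk (pfs := [[([],55)],[([],57)],[([],59)],[([],61)],[([],65)],[([],63)],[([],71)],[([10],29)],[([11],5)],[([],81)],[([],83)],[([],85)],[([],89)],[([],87)],[([],95)],[([10],31)],[([11],7)],[([],107)],[([],109)],[([],113)],[([],111)],[([],119)],[([10],33)],[([11],9)],[([],133)],[([],137)],[([],135)],[([],143)],[([10],35)],[([11],11)],[([],161)],[([],159)],[([],167)],[([10],37)],[([11],13)],[([7],185)],[([],215)],[([10],41)],[([11],17)],[([],191)],[([10],39)],[([11],15)],[([10],47)],[([11],23)],[([11],3)],[([],289)]]) (by decide +kernel)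
theorem imp200016 : Imp.{u} io RFi24 S200015 := Imp.app ((Imp.refl.trans imp200017).trans dr1147) Imp.refl
noncomputable def S200018 : List (List ℕ) := lapp [r67] S200015
theorem imp200020 : Imp.{u} io S200015 C170 := Imp.of_chk (pfs := [[([],83)],[([],85)],[([],87)],[([],91)],[([],89)],[([],97)],[([],109)],[([],111)],[([],115)],[([],113)],[([],121)],[([],135)],[([],139)],[([],137)],[([],145)],[([],163)],[([],161)],[([],169)],[([7],187)],[([],217)],[([],193)],[([],1)]]) (by decide +kernel)
theorem imp200019 : Imp.{u} io RFi24 S200018 := Imp.app ((imp200016.trans imp200020).trans dr189) imp200016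
theorem imp200021 : Imp.{u} io S200018 C1981 := Imp.of_chk (pfs := [[([],295)],[([],59)],[([],61)],[([],63)],[([],65)],[([],69)],[([],71)],[([],67)],[([],75)],[([],73)],[([10],33)],[([11],9)],[([],85)],[([],87)],[([],89)],[([],93)],[([],95)],[([],91)],[([],99)],[([],97)],[([10],35)],[([11],11)],[([],111)],[([],113)],[([],117)],[([],119)],[([],115)],[([],123)],[([],121)],[([10],37)],[([11],13)],[([],137)],[([],141)],[([],143)],[([],139)],[([],147)],[([],145)],[([10],39)],[([11],15)],[([],165)],[([],167)],[([],163)],[([],171)],[([],169)],[([10],41)],[([11],17)],[([],215)],[([7],189)],[([],219)],[([],217)],[([10],45)],[([11],21)],[([7],191)],[([],243)],[([],241)],[([10],47)],[([11],23)],[([],195)],[([],193)],[([10],43)],[([11],19)],[([9],267)],[([10],51)],[([11],27)],[([10],49)],[([11],25)],[([11],7)],[([],3)],[([],1)],[([],293)]]) (by decide +kernel)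
theorem imp200022 : Imp.{u} io RFi24 C1981 := Imp.trans imp200019 imp200021
theorem topFi24 : cl gFi24 (lw [0,1,2,3,4,5,6,7,8,9,10,11]) = ⊤ := presG_lw_top hiFi24 (by intro x; cases x <;> decide)
theorem upFi24 : Finite Spor.Fi24 ∧ Nat.card Spor.Fi24 ≤ 2510411418381323442585600 := by
  have := (bd1982.of_imp imp200022) _ _ satFi24
  rw [topFi24, Subgroup.card_top] at this
  exact ⟨(Subgroup.topEquiv (G := Spor.Fi24)).toEquiv.finite_iff.1 this.1, this.2⟩
instance instFinFi24 : Finite Spor.Fi24 := upFi24.1

end Cfsg.Agent.H6.Fi
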