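import Cfsg.Agent.H6.Fi24c13
import Cfsg.Agent.H6.Fi24c14
import Cfsg.Agent.H6.Fi24c15
import Cfsg.Agent.H6.Fi24c16
set_option maxRecDepth 100000
set_option Elab.async false
namespace Cfsg.Agent.H6.Fi
open Cfsg.Agent.H6
universe u

theorem sat200023 : Sat io C200001 (finG m200002ok) := ((((((((((((((((((((((((((((((((((((((((((((((((((((((((((((((((((((m200002s0.cons rl200253).cons rl200233).cons rl200229).cons rl200226).cons rl200223).cons rl200220).cons rl200217).cons rl200214).cons rl200211).cons rl200208).cons rl200205).cons rl200201).cons rl200198).cons rl200195).cons rl200191).cons rl200188).cons rl200185).cons rl200182).cons rl200179).cons rl200176).cons rl200173).cons rl200170).cons rl200166).cons rl200163).cons rl200160).cons rl200157).cons rl200154).cons rl200151).cons rl200148).cons rl200144).cons rl200141).cons rl200138).cons rl200135).cons rl200132).cons rl200128).cons rl200125).cons rl200122).cons rl200118).cons rl200115).cons rl200112).cons rl200109).cons rl200106).cons rl200103).cons rl200100).cons rl200097).cons rl200094).cons rl200090).cons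 rl200087).cons rl200084).cons rl200081).cons rl200078).cons rl200075).cons rl200072).cons rl200069).cons rl200066).cons rl200063).cons rl200059).cons rl200056).cons rl200052).cons rl200049).cons rl200046).cons rl200043).cons rl200040).cons rl200037).cons rl200034).cons rl200031).cons rl200028).cons rl200024)
theorem imp200273 : Imp.{u} io C200001 RFi24 := Imp.of_chk (pfs := [[],[([10],131)],[([0],21)],[([1],41)],[([2],59)],[([3],75)],[([4],89)],[([7],119)],[([5],101)],[([6],111)],[([9],129)],[([8],125)],[([],131)],[],[([0],19)],[([1],39)],[([2],57)],[([3],73)],[([4],87)],[([7],117)],[([5],99)],[([6],109)],[([9],127)],[([8],123)],[([],21)],[([],19)],[],[([],1)],[([],3)],[([],5)],[([],7)],[([],13)],[([],9)],[([],11)],[([],17)],[([],15)],[([],41)],[([],39)],[([0],1)],[],[([],23)],[([],25)],[([],27)],[([],33)],[([],29)],[([],31)],[([],37)],[([],35)],[([],59)],[([],57)],[([0],3)],[([1],23)],[],[([],43)],[([],45)],[([],51)],[([],47)],[([],49)],[([],55)],[([],53)],[([],75)],[([],73)],[([0],5)],[([1],25)],[([2],43)],[],[([],61)],[([],67)],[([],63)],[([],65)],[([]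,71)],[([],69)],[([],89)],[([],87)],[([0],7)],[([1],27)],[([2],45)],[([3],61)],[],[([],81)],[([],77)],[([],79)],[([],85)],[([],83)],[([],119)],[([],117)],[([0],13)],[([1],33)],[([2],51)],[([3],67)],[([4],81)],[],[([5],93)],[([6],103)],[([],115)],[([],113)],[([],101)],[([],99)],[([0],9)],[([1],29)],[([2],47)],[([3],63)],[([4],77)],[([],93)],[],[([],91)],[([],97)],[([],95)],[([],111)],[([],109)],[([0],11)],[([1],31)],[([2],49)],[([3],65)],[([4],79)],[([],103)],[([5],91)],[],[([],107)],[([],105)],[([],129)],[([],127)],[([0],17)],[([1],37)],[([2],55)],[([3],71)],[([4],85)],[([7],115)],[([5],97)],[([6],107)],[],[([8],121)],[([],125)],[([],123)],[([0],15)],[([1],35)],[([2],53)],[([3],69)],[([4],83)],[([7],113)],[([5],95)],[([6],105)],[([],121)],[],[([],133)],[([],135)]]) (by decide +kernel)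
theorem psatFi24 : Sat io RFi24 (finG m200002ok) := imp200273.{0} _ _ sat200023
noncomputable def piFi24 : Spor.Fi24 →* Equiv.Perm (Fin 306936) := presHom hRFi24 psatFi24
theorem hpiFi24 : ∀ l, piFi24 (gFi24 l) = finG m200002ok l := presHom_presG _ _ (by decide +kernel) (finG_eq_one _ (n := 12) (by decide +kernel))
noncomputable instance instActFi24 : MulAction Spor.Fi24 (Fin 306936) := homAct piFi24
theorem modelFi24 : IsModel 306936 (finX 306936) gFi24 m200002 vT := homModel piFi24 _ hpiFi24

end Cfsg.Agent.H6.Fi
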