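import Cfsg.Agent.H6.Fi24c2
import Cfsg.Agent.H6.Fi24c3
import Cfsg.Agent.H6.Fi24c4
import Cfsg.Agent.H6.Fi24c5
import Cfsg.Agent.H6.Fi24c6
import Cfsg.Agent.H6.Fi24c7
set_option maxRecDepth 100000
set_option Elab.async false
namespace Cfsg.Agent.H6.Fi
open Cfsg.Agent.H6
universe u

noncomputable def m200002l : List Net := [m200002n0,m200002n1,m200002n2,m200002n3,m200002n4,m200002n5,m200002n6,m200002n7,m200002n8,m200002n9,m200002n10,m200002n11]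
noncomputable abbrev m200002 : ℕ → Net := lk Net.nil m200002l
theorem m200002ok : NetsOk 306936 m200002 vT := netsOk_of' (List.forall_mem_cons.2 ⟨m200002n0ok, (List.forall_mem_cons.2 ⟨m200002n1ok, (List.forall_mem_cons.2 ⟨m200002n2ok, (List.forall_mem_cons.2 ⟨m200002n3ok, (List.forall_mem_cons.2 ⟨m200002n4ok, (List.forall_mem_cons.2 ⟨m200002n5ok, (List.forall_mem_cons.2 ⟨m200002n6ok, (List.forall_mem_cons.2 ⟨m200002n7ok, (List.forall_mem_cons.2 ⟨m200002n8ok, (List.forall_mem_cons.2 ⟨m200002n9ok, (List.forall_mem_cons.2 ⟨m200002n10ok, (List.forall_mem_cons.2 ⟨m200002n11ok, (by simp)⟩)⟩)⟩)⟩)⟩)⟩)⟩)⟩)⟩)⟩)⟩)⟩)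

end Cfsg.Agent.H6.Fi
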