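import Cfsg.Agent.H6.Fi24d1
set_option maxRecDepth 100000
namespace Cfsg.Agent.H6.Fi
open Cfsg.Agent.H6 MulAction

theorem io_eq (l : ℕ) : io l = l := by
  by_cases h : l < 12
  · interval_cases l <;> rfl
  · show lk l il l = l
    rw [lk_eq, List.getD_eq_default]
    show 12 ≤ l; omega

noncomputable abbrev l24 : Spor.Fi24 := gFi24 11
theorem l24_sq : l24 * l24 = 1 := by simpa using lrel24 [11,11] (by simp)
theorem g24_sq (x : ℕ) : gFi24 x * gFi24 x = 1 := by
  have := satFi24.inv x
  rw [io_eq] at this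
  nth_rewrite 1 [this]; simp
theorem l24_comm (x : ℕ) (h : x < 10) : Commute l24 (gFi24 x) := by
  have h1 : wp gFi24 [11,x,11,x] = 1 := lrel24 _ (by interval_cases x <;> simp)
  simp only [wp_cons, wp_nil, mul_one] at h1
  have h2 := g24_sq x
  have h3 := l24_sq
  show l24 * gFi24 x = gFi24 x * l24
  calc l24 * gFi24 x = (l24 * gFi24 x) * (gFi24 x * l24 * gFi24 x * l24)⁻¹ * (gFi24 x * l24) * (gFi24 x * l24) := by group
    _ = _ := by
      rw [show gFi24 x * l24 * gFi24 x * l24 = l24⁻¹ * (l24 * (gFi24 x * (l24 * gFi24 x))) * l24 by group, h1]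
      rw [show l24 * gFi24 x * (l24⁻¹ * 1 * l24)⁻¹ * (gFi24 x * l24) = l24 * (gFi24 x * gFi24 x) * l24 by group,
        h2, mul_one, h3, one_mul]

/-- the sign character -/
def sg24 (l : ℕ) : ℤˣ := if l < 12 then -1 else 1
theorem sat_sg : Sat io RFi24 sg24 := ⟨fun l => by rw [io_eq, sg24]; split_ifs <;> rfl, by decide +kernel⟩
noncomputable def sgn24 : Spor.Fi24 →* ℤˣ := presHom hRFi24 sat_sg
theorem sgn24_g (l : ℕ) : sgn24 (gFi24 l) = sg24 l :=
  presHom_presG _ _ (by decide +kernel) (fun l hl => if_neg (by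
    have : cdFi24.length = 12 := rfl
    omega)) l
theorem comm_eq24 : commutator Spor.Fi24 = sgn24.ker :=
  commutator_eq_ker sgn24 topFi24 (a := l24) (by rw [l24_sq]; exact one_mem _) (by rw [sgn24_g]; decide)
    fun l hl => by
      have := comm24 [11, l] (by
        simp only [List.mem_cons, List.not_mem_nil, or_false] at hl
        rcases hl with rfl | rfl | rfl | rfl | rfl | rfl | rfl | rfl | rfl | rfl | rfl | rfl <;> simp)
      simpa using this
theorem index24 : (commutator Spor.Fi24).index = 2 := by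
  rw [comm_eq24, Subgroup.index_ker, MonoidHom.range_eq_top.2, Subgroup.card_top]
  · simp
  · intro u
    rcases Int.units_eq_one_or u with rfl | rfl
    · exact ⟨1, map_one _⟩
    · exact ⟨l24, sgn24_g 11⟩
theorem l24_not : l24 ∉ commutator Spor.Fi24 := by
  rw [comm_eq24, MonoidHom.mem_ker, sgn24_g]; decide

/-- the twisted letters satisfy the relators of Fi23 -/
noncomputable def tw24 (x : ℕ) : Spor.Fi24 := if x < 10 then l24 * gFi24 x else 1
theorem wp_tw24 {w : List ℕ} (h : lall (fun x => Nat.ble x 9) w = true) : wp tw24 w = l24 ^ w.length * wp gFi24 w :=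
  wp_twist fun x hx => by
    have : x < 10 := Nat.lt_succ_of_le (ble_eq.1 ((lall_eq _ _).1 h x hx))
    exact ⟨if_pos this, l24_comm x this⟩
theorem l24_pow {n : ℕ} (h : n % 2 = 0) : l24 ^ n = 1 := by
  obtain ⟨k, rfl⟩ : ∃ k, n = 2 * k := ⟨n / 2, by omega⟩
  rw [pow_mul, sq, l24_sq, one_pow]
theorem sat_tw : Sat io RFi23 tw24 := by
  refine ⟨fun x => ?_, ?_⟩
  · rw [io_eq, tw24]
    split_ifs with h
    · rw [eq_inv_iff_mul_eq_one, mul_assoc, ← mul_assoc (gFi24 x), ← (l24_comm x h).eq, mul_assoc, g24_sq, mul_one,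
        l24_sq]
    · simp
  · have e : RFi23 = R23a ++ [E1w] := by decide +kernel
    rw [e]
    intro r hr
    rcases List.mem_append.1 hr with hr | hr
    · have := (lall_eq (fun r => band (lall (fun x => Nat.ble x 9) r) (Nat.beq (llen r % 2) 0)) R23a).1
        (by decide +kernel) r hr
      rw [band_eq, beq_eq, llen_eq] at this
      rw [wp_tw24 this.1, l24_pow this.2, sat23a.rel r hr, one_mul]
    · rw [List.mem_singleton.1 hr, wp_tw24 (by decide +kernel), E1_eq, show E1w.length = 62 + 1 by decide +kernel,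
        pow_succ, l24_pow (by norm_num)]
      simpa using l24_sq
noncomputable def psi24 : Spor.Fi23 →* Spor.Fi24 := presHom hRFi23 sat_tw
theorem psi24_g (l : ℕ) : psi24 (gFi23 l) = tw24 l :=
  presHom_presG _ _ (by decide +kernel) (fun l hl => if_neg (by
    have : cdFi23.length = 10 := rfl
    omega)) l
theorem tw0 : tw24 0 = wp gFi24 [11, 0] := by simp [tw24]
theorem psi24_inj : Function.Injective psi24 := by
  haveI := simpleFi23
  rw [← MonoidHom.ker_eq_bot_iff]
  refine (psi24.normal_ker.eq_bot_or_eq_top).resolve_right fun e => ?_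
  have : gFi23 0 ∈ psi24.ker := e ▸ Subgroup.mem_top _
  rw [MonoidHom.mem_ker, psi24_g, tw0] at this
  exact modelFi24.ne_one_of_mp (p := 1) (by decide +kernel) this

noncomputable abbrev H24 : Subgroup Spor.Fi24 := cl gFi24 swFi24
theorem l24_mem : l24 ∈ H24 := gen_mem_lw (by simp)
theorem psi_range : psi24.range = cl tw24 (lw [0,1,2,3,4,5,6,7,8,9]) := by
  rw [MonoidHom.range_eq_map, ← topFi23, map_cl]; simp only [psi24_g]
theorem psi_le : psi24.range ≤ H24 ⊓ commutator Spor.Fi24 := by
  rw [psi_range]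
  refine cl_lw_le.2 fun l hl => ?_
  have h : l < 10 := by
    simp only [List.mem_cons, List.not_mem_nil, or_false] at hl; omega
  rw [tw24, if_pos h]
  refine Subgroup.mem_inf.2 ⟨mul_mem l24_mem (gen_mem_lw (by interval_cases l <;> simp)), ?_⟩
  rw [comm_eq24, MonoidHom.mem_ker, map_mul, sgn24_g, sgn24_g, sg24, sg24, if_pos (by norm_num),
    if_pos (by omega)]
  simp
theorem card_psi : Nat.card psi24.range = 4089470473293004800 := by
  rw [← cardFi23]; exact (Nat.card_congr (MonoidHom.ofInjective psi24_inj).toEquiv).symm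
theorem lbH24 : 8178940946586009600 ≤ Nat.card H24 := by
  have := two_mul_card_le (psi_le.trans inf_le_left) l24_mem fun h => l24_not (psi_le h).2
  rw [card_psi] at this; exact this
theorem cardFi24 : Nat.card Spor.Fi24 = 2510411418381323442585600 := by
  refine le_antisymm upFi24.2 ?_
  have := card_step (K := ⊤) le_top fixFi24 (n := 306936) (by rw [orbit_top, norbFi24]) lbH24
  rwa [Subgroup.card_top] at this
theorem stabFi24 : H24 = stabilizer Spor.Fi24 (finX 306936 0) :=
  stab_eq_of_card fixFi24 norbFi24 (by norm_num) (cardFi24.trans (by norm_num)) lbH24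
theorem cardH24 : Nat.card H24 = 8178940946586009600 := by
  rw [stabFi24]; exact card_stab_of_orbit norbFi24 (by norm_num) (cardFi24.trans (by norm_num))
theorem partFi24 : OrbPart (stabilizer Spor.Fi24 (finX 306936 0)) (orbit Spor.Fi24 (finX 306936 0))
    [(finX 306936 0,1),(finX 306936 8,31671),(finX 306936 1,275264)] := by
  rw [← stabFi24, trFi24]; exact part0Fi24
theorem coatomFi24 : IsCoatom (stabilizer Spor.Fi24 (finX 306936 0)) :=
  isCoatom_of_sizes partFi24 norbFi24 rfl (by norm_num) (by norm_num) (by decide +kernel)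
theorem psi_eq : psi24.range = H24 ⊓ commutator Spor.Fi24 := by
  refine eq_of_le_of_ord psi_le card_psi.ge ?_
  have := two_mul_card_le (inf_le_left (b := commutator Spor.Fi24)) l24_mem fun h => l24_not h.2
  rw [cardH24] at this; omega
theorem cmFi24 : ∀ h ∈ stabilizer Spor.Fi24 (finX 306936 0), h * l24 = l24 * h := by
  rw [← stabFi24]
  refine fun h hh => Subgroup.mem_centralizer_singleton_iff.1 (cl_lw_le.2 (fun l hl => ?_) hh)
  rw [Subgroup.mem_centralizer_singleton_iff]
  simp only [List.mem_cons, List.not_mem_nil, or_false] at hl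
  rcases hl with rfl | rfl | rfl | rfl | rfl | rfl | rfl | rfl | rfl | rfl | rfl
  all_goals first | rfl | exact (l24_comm _ (by norm_num)).symm

theorem cfFi24 : ∀ M : Subgroup Spor.Fi24, M.Normal → M ≤ stabilizer Spor.Fi24 (finX 306936 0) → M = ⊥ := by
  intro M hM hle
  haveI := simpleFi23
  have triv : ∀ m ∈ M, m • finX 306936 1 = finX 306936 1 := fun m hm => by
    obtain ⟨g, hg⟩ : finX 306936 1 ∈ orbit Spor.Fi24 (finX 306936 0) := trFi24 ▸ ⟨1, by norm_num, rfl⟩
    have := hle (hM.conj_mem m hm g⁻¹)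
    rw [mem_stabilizer_iff, inv_inv, mul_smul, mul_smul, inv_smul_eq_iff] at this
    simp only at hg
    rw [← hg, this]
  have mv : ∀ w : List ℕ, fnWc m200002 w 1 ≠ 1 → wp gFi24 w ∉ M := fun w hw hm => hw (by
    have := triv _ hm
    rw [modelFi24.cmpW (fun _ _ => rfl) (by norm_num)] at this
    rw [fnWc_eq]
    exact modelFi24.inj _ ((modelFi24.ok.fnW_lt (fun _ _ => rfl) 1).2 (by norm_num)) _ (by norm_num) this)
  have h1 : M.comap psi24 = ⊥ := ((hM.comap psi24).eq_bot_or_eq_top).resolve_right fun e => by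
    have : gFi23 0 ∈ M.comap psi24 := e ▸ Subgroup.mem_top _
    rw [Subgroup.mem_comap, psi24_g, tw0] at this
    exact mv _ (by decide +kernel) this
  have h2 : ∀ m ∈ M, m ∈ commutator Spor.Fi24 → m = 1 := fun m hm hc => by
    obtain ⟨y, rfl⟩ : m ∈ psi24.range := psi_eq ▸ ⟨stabFi24 ▸ hle hm, hc⟩
    have : y ∈ M.comap psi24 := hm
    rw [h1, Subgroup.mem_bot] at this
    rw [this, map_one]
  rw [eq_bot_iff]
  intro m hm
  by_contra h0
  have h3 : m ∉ commutator Spor.Fi24 := fun h => h0 (h2 m hm h)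
  have h4 : ∀ g, g * m = m * g := fun g => by
    have := h2 (g * m * g⁻¹ * m⁻¹) (M.mul_mem (hM.conj_mem m hm g) (M.inv_mem hm))
      (Subgroup.commutator_mem_commutator (Subgroup.mem_top g) (Subgroup.mem_top m))
    rwa [mul_inv_eq_one, mul_inv_eq_iff_eq_mul] at this
  obtain ⟨y, hy⟩ : l24 * m ∈ psi24.range := psi_eq ▸ ⟨mul_mem l24_mem (stabFi24 ▸ hle hm),
    (Subgroup.mul_mem_iff_of_index_two index24).2 (by simp [h3, l24_not])⟩
  have h5 : y ∈ Subgroup.center Spor.Fi23 := Subgroup.mem_center_iff.2 fun x => psi24_inj (by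
    rw [map_mul, map_mul, hy, ← mul_assoc, cmFi24 _ (stabFi24 ▸ (psi_le ⟨x, rfl⟩).1), mul_assoc, h4, mul_assoc])
  rw [center23, Subgroup.mem_bot] at h5
  rw [h5, map_one, eq_comm, mul_eq_one_iff_eq_inv'] at hy
  have : wp gFi24 [11] ∈ M := by simpa [hy] using M.inv_mem hm
  exact mv _ (by decide +kernel) this

theorem faithFi24 : Faith Spor.Fi24 306936 (finX 306936) := fun g hg => by
  have := cfFi24 piFi24.ker inferInstance fun m hm => by
    show piFi24 m _ = _
    rw [MonoidHom.mem_ker.1 hm]; rfl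
  exact Subgroup.mem_bot.1 (this ▸ (faith_fin 306936 (piFi24 g) hg : g ∈ piFi24.ker))

theorem ncl24 {A : Set Spor.Fi24} (h : l24 ∈ A) : Subgroup.normalClosure A = ⊤ :=
  nclFi24 (List.forall_mem_singleton.2 (by simpa using h))
theorem min24 : ∀ N : Subgroup Spor.Fi24, N.Normal → N ≠ ⊥ → commutator Spor.Fi24 ≤ N :=
  commutator_le_of_central coatomFi24 cfFi24 cmFi24 (ncl24 (Subgroup.mem_zpowers _))
theorem cardFi24' : Nat.card (commutator Spor.Fi24) = 1255205709190661721292800 := by
  have := (commutator Spor.Fi24).index_mul_card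
  rw [index24, cardFi24] at this; omega
theorem simpleFi24' : IsSimpleGroup (commutator Spor.Fi24) :=
  simple_of_index_two index24 min24 (by
    rw [cardFi24']; exact not_sq_of (p := 29) (by norm_num) (by norm_num) (by norm_num))
theorem centFi24 : Subgroup.centralizer {l24} = stabilizer Spor.Fi24 (finX 306936 0) :=
  centralizer_eq_of_coatom coatomFi24 cmFi24 ⟨wp gFi24 [10], by
    rw [show l24 = wp gFi24 [11] by simp, ← wp_lapp, ← wp_lapp]
    exact modelFi24.ne_of_mp (p := 0) (by decide +kernel)⟩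
theorem ord24 : orderOf l24 = 2 := orderOf_two l24_sq fun h => l24_not (h ▸ one_mem _)
theorem ttFi24 : IsThreeTranspositionSet (conjugatesOf l24) := by
  rw [show l24 = wp gFi24 [11] by simp]
  refine three_transp (by simpa using centFi24) partFi24 (by simpa using ord24)
    (List.forall_mem_cons.2 ⟨⟨wp gFi24 [], modelFi24.toIsPre.smul_of_ptc (by decide +kernel), Or.inl
      (pow_conj_of satFi24 (trel24 [11,11,11,11] (by simp)) (by decide +kernel))⟩,
    List.forall_mem_cons.2 ⟨⟨wp gFi24 [10,11,0,10], modelFi24.toIsPre.smul_of_ptc (by decide +kernel), Or.inl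
      (pow_conj_of satFi24 (trel24 [11,10,11,0,10,11,10,0,11,10,11,10,11,0,10,11,10,0,11,10] (by simp))
        (by decide +kernel))⟩,
    List.forall_mem_cons.2 ⟨⟨wp gFi24 [10], modelFi24.toIsPre.smul_of_ptc (by decide +kernel), Or.inr
      (pow_conj_of satFi24 (trel24 [11,10,11,10,11,10,11,10,11,10,11,10] (by simp)) (by decide +kernel))⟩,
      by simp⟩⟩⟩)
theorem ttc24 : IsThreeTranspositionClass (conjugatesOf l24) :=
  ⟨ttFi24, ⟨_, IsConj.refl _, rfl⟩, (closure_conj _).trans (ncl24 rfl)⟩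
theorem cardD24 : Nat.card (conjugatesOf l24) = 306936 := by
  rw [card_conjugatesOf, index_of_stab centFi24 norbFi24]

end Cfsg.Agent.H6.Fi
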