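import Cfsg.Agent.H6.HeS2
set_option maxRecDepth 100000
set_option Elab.async false
namespace Cfsg.Agent.H6.HeS4
open Cfsg.Agent.H6
universe u

noncomputable def wsK : List (List ℕ) := [[4,3,5,1,2,3,6,2,3,4,1,2,3,2,3,1,2,3,2,1,6,3,5,4,3,2,3,5,4,3,6],[6,3,4,5,3,2,3,4,5,3,6,1,2,3,2,1,3,2,3,2,1,4,3,2,6,3,2,1,5,3,4],[3,6,5,1,2,3,6,1,2,3,1,2,3,6,0,1,2,3,2,1,6,4,3,2,3,5,4,2,3,2,0,3,6,5,6],[6,5,6,3,0,2,3,2,4,5,3,2,3,4,6,1,2,3,2,1,0,6,3,2,1,3,2,1,6,3,2,1,5,6,3],[5,4,3,6,1,2,3,1,2,3,6,3,2,3,2,1,6,5,3,2,0,5,3,6,5,6],[6,5,6,3,5,0,2,3,5,6,1,2,3,2,3,6,3,2,1,3,2,1,6,3,4,5]]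
theorem hK : cl He.gHe wsK ≤ (cl He.gHe He.swHe) := le_of_le_of_eq (He.modelHe.toIsPre.cl_le_stab (by decide +kernel)) He.stabHe.symm
noncomputable def gK : ℕ → ↥(cl He.gHe He.swHe) := kG hK
theorem heqK : ∀ u w, (fun u w => He.eqvHe (sel wsK u) (sel wsK w)) u w = true → wp gK u = wp gK w := fun u w h => Subtype.ext (by rw [gK, wp_kG, wp_kG]; exact He.heqHe _ _ h)
theorem hgeK : ∀ l, llen il ≤ l → gK l = 1 := fun _ h => kG_ge _ h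
theorem s0K : Sat io [] gK := sat_of_eqv heqK hgeK (by decide +kernel)
theorem satK : Sat io RS gK := ⟨s0K.inv, rels_of_eqv heqK (by decide +kernel)⟩
theorem neK : wp gK [0] ≠ wp gK [] := fun e => He.modelHe.ne_of_mp (u := sel wsK [0]) (w := sel wsK []) (p := 1) (by decide +kernel) (by
  rw [← wp_kG hK, ← wp_kG hK]; exact congrArg Subtype.val e)
theorem hxy : wp gS [0] * wp gS [2] ≠ wp gS [2] * wp gS [0] := by
  rw [← wp_lapp, ← wp_lapp]; exact modelS.ne_of_mp (p := 0) (by decide +kernel)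
theorem main : (commutator ↥(cl He.gHe He.swHe)).index = 2 ∧ Nonempty (GS ≃* commutator ↥(cl He.gHe He.swHe)) :=
  bdS.equiv_comm satS satK topS cardS simpleS hxy (He.cstabHe.trans (by norm_num)) (u := [0]) (by decide +kernel) neK

end Cfsg.Agent.H6.HeS4
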