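/- Orbits of `3.J₃` on vectors through bit planes. -/
import Cfsg.Agent.H6.J3A
namespace Cfsg.Agent.H6.Jl
open Spor Matrix J3
universe u
variable {F : Type u} [Field F] [CharP F 2] {ω : F}

def bt (F : Type u) [Field F] (A p : ℕ) : F := if A.testBit p then 1 else 0
theorem bt_xor (A B p : ℕ) : bt F (Nat.xor A B) p = bt F A p + bt F B p := by
  have e : (Nat.xor A B).testBit p = (A.testBit p ^^ B.testBit p) := Nat.testBit_xor ..
  unfold bt; rw [e]
  cases A.testBit p <;> cases B.testBit p <;> simp [CharTwo.add_self_eq_zero]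
theorem val_dg (p w : ℕ) : val2 2 ω (dg 4 p w) = bt F p (2 * w) + bt F p (2 * w + 1) * ω := by
  have e4 : 4 ^ w = 2 ^ (2 * w) := by rw [pow_mul]; norm_num
  have e5 : p / 2 ^ (2 * w + 1) = p / 2 ^ (2 * w) / 2 := by rw [pow_succ, Nat.div_div_eq_div_mul]
  unfold bt val2
  rw [dg_eq, e4, Nat.testBit_eq_decide_div_mod_eq, Nat.testBit_eq_decide_div_mod_eq, e5]
  generalize p / 2 ^ (2 * w) = y
  have a : y % 4 % 2 = y % 2 := by omega
  have b : y % 4 / 2 = y / 2 % 2 := by omega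
  rw [a, b]
  rcases Nat.mod_two_eq_zero_or_one y with c | c <;> rcases Nat.mod_two_eq_zero_or_one (y / 2) with d | d <;> simp [c, d]
theorem bt_slice {p : ℕ} (hp : p < 2 ^ 18) (j : ℕ) : bt F (slice 18 j) p = bt F p j := by
  unfold bt; rw [testBit_slice, decide_eq_true hp, Bool.true_and]
def vec (ω : F) (p : ℕ) : F9 → F := fun z => val2 2 ω (dg 4 p (ixF9.ix z))

noncomputable def msk (b : Bool) (x : ℕ) : ℕ := Bool.rec (motive := fun _ => ℕ) 0 x b
theorem bt_msk (a j x p : ℕ) : bt F (msk (tb a j) x) p = bt F a j * bt F x p := by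
  rw [tb_eq]; unfold bt; cases a.testBit j
  · simp [msk]
  · rw [if_pos rfl, one_mul]; rfl
noncomputable def r0 (x n : ℕ) : ℕ := Nat.rec (motive := fun _ => ℕ) 0 (fun w ih => Nat.xor ih
  (Nat.xor (msk (tb x (2 * w)) (slice 18 (2 * w))) (msk (tb x (2 * w + 1)) (slice 18 (2 * w + 1))))) n
noncomputable def r1 (x n : ℕ) : ℕ := Nat.rec (motive := fun _ => ℕ) 0 (fun w ih => Nat.xor ih
  (Nat.xor (msk (tb x (2 * w)) (slice 18 (2 * w + 1))) (msk (tb x (2 * w + 1)) (Nat.xor (slice 18 (2 * w)) (slice 18 (2 * w + 1)))))) n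
theorem r_spec (h : ω ^ 2 + ω + 1 = 0) {p : ℕ} (hp : p < 2 ^ 18) (x n : ℕ) :
    bt F (r0 x n) p + bt F (r1 x n) p * ω = ∑ w ∈ Finset.range n, val2 2 ω (dg 4 x w) * val2 2 ω (dg 4 p w) := by
  have h2 : (2 : F) = 0 := CharTwo.two_eq_zero
  induction n with
  | zero => simp [r0, r1, bt]
  | succ n ih =>
    have e0 : r0 x (n + 1) = Nat.xor (r0 x n)
      (Nat.xor (msk (tb x (2 * n)) (slice 18 (2 * n))) (msk (tb x (2 * n + 1)) (slice 18 (2 * n + 1)))) := rfl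
    have e1 : r1 x (n + 1) = Nat.xor (r1 x n) (Nat.xor (msk (tb x (2 * n)) (slice 18 (2 * n + 1)))
      (msk (tb x (2 * n + 1)) (Nat.xor (slice 18 (2 * n)) (slice 18 (2 * n + 1))))) := rfl
    rw [Finset.sum_range_succ, ← ih, e0, e1, val_dg, val_dg]
    simp only [bt_xor, bt_msk, bt_slice hp]
    linear_combination (-(bt F x (2 * n + 1) * bt F p (2 * n + 1))) * h +
      (bt F x (2 * n + 1) * bt F p (2 * n + 1) * (ω + 1)) * h2

noncomputable def mkN (l : List (ℕ × ℕ)) : Net := List.rec (motive := fun _ => Net) Net.nil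
  (fun a _ ih => Net.cons (Nat.pow 2 a.1) (Nat.land (slice 18 a.2) (Nat.xor (slice 18 a.1) (Nat.sub (Nat.pow 2 262144) 1))) ih) l
noncomputable def lnk (X : List ℕ) (n : Net) : Bool := band (n.ok 262144) (nall (fun z =>
  band (Nat.beq (n.app (slice 18 (2 * z))) (r0 (lk 0 X z) 9)) (Nat.beq (n.app (slice 18 (2 * z + 1))) (r1 (lk 0 X z) 9))) 9)
theorem lnk_spec (h : ω ^ 2 + ω + 1 = 0) {X : List ℕ} {n : Net} (hc : lnk X n = true) :
    n.Ok 262144 ∧ ∀ p < 262144, toMat ixF9 4 (val2 2 ω) X *ᵥ vec ω p = vec ω (n.fn p) := by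
  simp only [lnk, band_eq, nall_eq, beq_eq] at hc
  have ok := Net.ok_of hc.1
  refine ⟨ok, fun p hp => funext fun z => ?_⟩
  have hz : ixF9.ix z < 9 := (ixF9.e z).2
  have hq : n.fn p < 2 ^ 18 := (ok.lt p).2 hp
  have k : ∀ j, bt F (n.app (slice 18 j)) p = bt F (n.fn p) j := fun j => by
    rw [← bt_slice hq]; unfold bt; rw [Net.testBit_app ok.ok0]
  have e := r_spec h (p := p) hp (lk 0 X (ixF9.ix z)) 9
  rw [← (hc.2 _ hz).1, ← (hc.2 _ hz).2, k, k, ← val_dg] at e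
  rw [vec, e, ← Fin.sum_univ_eq_sum_range (fun w => val2 2 ω (dg 4 (lk 0 X (ixF9.ix z)) w) * val2 2 ω (dg 4 p w)),
    ← Equiv.sum_comp ixF9.e]
  rfl

def Act (ω : F) (g : ℕ → threeJ3 F ω) (ns : ℕ → Net) (l : ℕ) : Prop :=
  (ns l).Ok 262144 ∧ ∀ p < 262144, rho F ω (g l) *ᵥ vec ω p = vec ω ((ns l).fn p)
def Rc (ω : F) (p0 S : ℕ) : Prop := ∀ p < 262144, S.testBit p = true → ∃ t : threeJ3 F ω, rho F ω t *ᵥ vec ω p0 = vec ω p
noncomputable def grow (ns : ℕ → Net) (w : List ℕ) : ℕ → ℕ := List.rec (motive := fun _ => ℕ → ℕ) (fun S => S)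
  (fun l _ ih S => seq (Nat.lor S ((ns l).app S)) ih) w
omit [CharP F 2] in
theorem inv_vec {t : threeJ3 F ω} {u v : F9 → F} (h : rho F ω t *ᵥ u = v) : rho F ω t⁻¹ *ᵥ v = u := by
  rw [← h, mulVec_mulVec, ← map_mul, inv_mul_cancel, map_one, one_mulVec]
omit [CharP F 2] in
theorem Rc.grow {g : ℕ → threeJ3 F ω} {ns : ℕ → Net} (ha : ∀ l < 10, Act ω g ns l) {p0 : ℕ} {w : List ℕ}
    (hw : ∀ l ∈ w, l < 10) {S : ℕ} (h : Rc ω p0 S) : Rc ω p0 (grow ns w S) := by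
  induction w generalizing S with
  | nil => exact h
  | cons l w ih =>
    have e : Jl.grow ns (l :: w) S = Jl.grow ns w (S ||| (ns l).app S) := seq_eq _ _
    rw [e]
    refine ih (fun a b => hw a (by simp [b])) fun p hp c => ?_
    obtain ⟨a1, a2⟩ := ha l (hw l (by simp))
    rw [Nat.testBit_or, Bool.or_eq_true, Net.testBit_app a1.ok0] at c
    rcases c with c | c
    · exact h p hp c
    · obtain ⟨t, ht⟩ := h _ ((a1.lt p).2 hp) c
      exact ⟨(g l)⁻¹ * t, by rw [map_mul, ← mulVec_mulVec, ht, inv_vec (a2 p hp)]⟩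
omit [CharP F 2] in
theorem Rc.start (p0 : ℕ) : Rc ω p0 (Nat.pow 2 p0) := fun p _ c => by
  have : p0 = p := by simpa [Nat.testBit_two_pow] using c
  exact ⟨1, by rw [map_one, one_mulVec, this]⟩
omit [CharP F 2] in
theorem closed {g : ℕ → threeJ3 F ω} {ns : ℕ → Net} (ha : ∀ l < 10, Act ω g ns l)
    (top : cl g (lw [0,1,2,3,4,5,6,7,8,9]) = ⊤) {S : ℕ} (hc : ∀ l < 10, (ns l).app S = S) (t : threeJ3 F ω) :
    ∀ p < 262144, S.testBit p = true → ∃ q < 262144, S.testBit q = true ∧ rho F ω t *ᵥ vec ω p = vec ω q := by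
  have ht : t ∈ cl g (lw [0,1,2,3,4,5,6,7,8,9]) := top ▸ Subgroup.mem_top t
  have gen : ∀ x ∈ {x | ∃ w ∈ lw [0,1,2,3,4,5,6,7,8,9], wp g w = x}, ∃ l < 10, g l = x := by
    rintro x ⟨w, hw, rfl⟩
    rw [lw_eq] at hw
    obtain ⟨l, hl, rfl⟩ := List.mem_map.1 hw
    exact ⟨l, by simp at hl; omega, by simp⟩
  induction ht using Subgroup.closure_induction_left with
  | one => exact fun p hp c => ⟨p, hp, c, by rw [map_one, one_mulVec]⟩
  | mul_left x hx y _ ih =>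
    intro p hp c
    obtain ⟨q, hq, c1, e⟩ := ih p hp c
    obtain ⟨l, hl, rfl⟩ := gen x hx
    obtain ⟨a1, a2⟩ := ha l hl
    exact ⟨_, (a1.lt q).2 hq, by rw [← Net.testBit_app a1.ok0, hc l hl, c1], by rw [map_mul, ← mulVec_mulVec, e, a2 q hq]⟩
  | inv_mul_cancel x hx y _ ih =>
    intro p hp c
    obtain ⟨q, hq, c1, e⟩ := ih p hp c
    obtain ⟨l, hl, rfl⟩ := gen x hx
    obtain ⟨a1, a2⟩ := ha l hl
    refine ⟨(ns l).fni q, (a1.lti q).2 hq, by rw [← hc l hl, Net.testBit_app a1.ok0, Net.fn_fni a1.ok0, c1], ?_⟩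
    rw [map_mul, ← mulVec_mulVec, e]
    exact inv_vec (by rw [a2 _ ((a1.lti q).2 hq), Net.fn_fni a1.ok0])

theorem val_surj [Fintype F] (hF : Fintype.card F = 4) (h : ω ^ 2 + ω + 1 = 0) (x : F) : ∃ a < 4, val2 2 ω a = x := by
  have : Function.Bijective fun a : Fin 4 => val2 2 ω a := (Fintype.bijective_iff_injective_and_card _).2
    ⟨fun a b e => Fin.ext (inj4 h a a.2 b b.2 e), by simp [hF]⟩
  obtain ⟨a, e⟩ := this.2 x
  exact ⟨a, a.2, e⟩
theorem vec_inj (h : ω ^ 2 + ω + 1 = 0) {p q : ℕ} (hp : p < 262144) (hq : q < 262144) (e : vec ω p = vec ω q) : p = q := by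
  have k : ∀ i : Fin 9, dg 4 p i = dg 4 q i := fun i => by
    have := congrFun e (ixF9.e.symm i)
    simp only [vec, Ix.ix, Equiv.apply_symm_apply] at this
    exact inj4 h _ (dg_lt (by decide) _ _) _ (dg_lt (by decide) _ _) this
  have k0 := k 0; have k1 := k 1; have k2 := k 2; have k3 := k 3; have k4 := k 4; have k5 := k 5
  have k6 := k 6; have k7 := k 7; have k8 := k 8
  simp only [dg_eq] at k0 k1 k2 k3 k4 k5 k6 k7 k8
  norm_num at k0 k1 k2 k3 k4 k5 k6 k7 k8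
  omega
theorem vec_surj [Fintype F] (hF : Fintype.card F = 4) (h : ω ^ 2 + ω + 1 = 0) (v : F9 → F) : ∃ p < 262144, vec ω p = v := by
  classical
  have : Function.Bijective fun a : Fin 262144 => vec ω a := (Fintype.bijective_iff_injective_and_card _).2
    ⟨fun a b e => Fin.ext (vec_inj h a.2 b.2 e), by rw [Fintype.card_fun, hF, Fintype.card_fin]; rfl⟩
  obtain ⟨a, e⟩ := this.2 v
  exact ⟨a, a.2, e⟩

noncomputable def nI (n : ℕ) : ℕ := Nat.rec (motive := fun _ => ℕ) 0 (fun w ih => Nat.xor ih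
  (Nat.lor (slice 18 (2 * w)) (slice 18 (2 * w + 1)))) n
theorem nI_spec (h : ω ^ 2 + ω + 1 = 0) {p : ℕ} (hp : p < 2 ^ 18) (n : ℕ) :
    bt F (nI n) p = ∑ w ∈ Finset.range n, val2 2 ω (dg 4 p w) ^ 3 := by
  have h2 : (2 : F) = 0 := CharTwo.two_eq_zero
  induction n with
  | zero => simp [nI, bt]
  | succ n ih =>
    have e0 : nI (n + 1) = Nat.xor (nI n) (slice 18 (2 * n) ||| slice 18 (2 * n + 1)) := rfl
    rw [Finset.sum_range_succ, ← ih, e0, bt_xor, val_dg]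
    congr 1
    unfold bt
    rw [Nat.testBit_or, testBit_slice, testBit_slice, decide_eq_true hp]
    cases p.testBit (2 * n) <;> cases p.testBit (2 * n + 1) <;> simp
    · linear_combination (1 - ω) * h
    · linear_combination (-ω - 2) * h + (1 : F) * h2
theorem ones_bit {N x p : ℕ} (h : x = Nat.sub (Nat.pow 2 N) 1) (hp : p < N) : x.testBit p = true := by
  have : x = 2 ^ N - 1 := h
  rw [this, Nat.testBit_two_pow_sub_one]; simpa using hp
theorem iso_bit (h : ω ^ 2 + ω + 1 = 0) {S p : ℕ} (hc : Nat.lor (Nat.lor S (nI 9)) 1 = Nat.sub (Nat.pow 2 262144) 1)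
    (hp : p < 262144) (h0 : vec ω p ≠ 0) (hs : ∑ z, vec ω p z ^ 3 = 0) : S.testBit p = true := by
  have e : ((S ||| nI 9) ||| 1).testBit p = true := ones_bit hc hp
  have k := nI_spec h (p := p) hp 9
  rw [← Fin.sum_univ_eq_sum_range (fun w => val2 2 ω (dg 4 p w) ^ 3), ← Equiv.sum_comp ixF9.e] at k
  have k2 : bt F (nI 9) p = 0 := k.trans hs
  rw [Nat.testBit_or, Nat.testBit_or, Bool.or_eq_true, Bool.or_eq_true] at e
  rcases e with (e | e) | e
  · exact e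
  · simp [bt, e] at k2
  · have : p = 0 := by simpa [Nat.testBit_one_eq_true_iff_self_eq_zero] using e
    subst this
    exact absurd (funext fun z => by simp [vec, dg_zero, v0]) h0

omit [CharP F 2] in
theorem lines_card [Fintype F] (hF : Fintype.card F = 4) {V : Type*} [AddCommGroup V] [Module F V] (O : Finset V)
    (h0 : ∀ v ∈ O, v ≠ 0) (hs : ∀ v ∈ O, ∀ c : F, c ≠ 0 → c • v ∈ O) :
    O.card = 3 * {L : Submodule F V | ∃ v ∈ O, L = F ∙ v}.ncard := by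
  classical
  have e : {L : Submodule F V | ∃ v ∈ O, L = F ∙ v} = (O.image fun v => F ∙ v : Finset _) := by
    ext L; simp [eq_comm]
  rw [e, Set.ncard_coe_finset, Finset.card_eq_sum_card_image (fun v => F ∙ v) O, mul_comm]
  refine Finset.sum_const_nat fun L hL => ?_
  obtain ⟨v, hv, rfl⟩ := Finset.mem_image.1 hL
  have : O.filter (fun a => (F ∙ a) = F ∙ v) = (Finset.univ.erase (0 : F)).image (· • v) := by
    ext a
    simp only [Finset.mem_filter, Finset.mem_image, Finset.mem_erase, Finset.mem_univ, and_true]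
    constructor
    · rintro ⟨ha, e⟩
      obtain ⟨c, rfl⟩ := Submodule.mem_span_singleton.1 (e ▸ Submodule.mem_span_singleton_self a)
      exact ⟨c, fun d => h0 _ ha (by rw [d, zero_smul]), rfl⟩
    · rintro ⟨c, hc, rfl⟩
      exact ⟨hs v hv c hc, Submodule.span_singleton_smul_eq (IsUnit.mk0 c hc) v⟩
  rw [this, Finset.card_image_of_injective _ (smul_left_injective F (h0 v hv)), Finset.card_erase_of_mem (Finset.mem_univ _),
    Finset.card_univ, hF]

theorem fin_main [Fintype F] (hF : Fintype.card F = 4) (h : ω ^ 2 + ω + 1 = 0) {g : ℕ → threeJ3 F ω} {ns : ℕ → Net}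
    (ha : ∀ l < 10, Act ω g ns l) (top : cl g (lw [0,1,2,3,4,5,6,7,8,9]) = ⊤)
    (sc : ∃ t : threeJ3 F ω, ∀ v : F9 → F, rho F ω t *ᵥ v = ω • v) {S T p0 : ℕ} (r1 : Rc ω 1 S) (r2 : Rc ω p0 T)
    (c1 : ∀ l < 10, (ns l).app S = S) (b1 : S.testBit 1 = true) (n1 : (bits 262144 S).card = 69768)
    (c2 : Nat.lor (Nat.lor T (nI 9)) 1 = Nat.sub (Nat.pow 2 262144) 1) :
    {L : Submodule F (F9 → F) | ∃ g ∈ threeJ3 F ω, L = F ∙ ((g : Matrix F9 F9 F) *ᵥ (Pi.single (0 : F9) (1 : F) : F9 → F))}.ncard = 23256 ∧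
    ∀ v w : F9 → F, v ≠ 0 → w ≠ 0 → ∑ z, (v z) ^ 3 = 0 → ∑ z, (w z) ^ 3 = 0 →
      ∃ g ∈ threeJ3 F ω, ∃ c : F, c ≠ 0 ∧ (g : Matrix F9 F9 F) *ᵥ v = c • w := by
  classical
  constructor
  · have e1 : vec ω 1 = Pi.single (0 : F9) (1 : F) := funext fun z => by
      have : ∀ z : F9, dg 4 1 (ixF9.ix z) = if z = 0 then 1 else 0 := by decide +kernel
      rw [vec, this, Pi.single_apply]
      split_ifs <;> simp [v0, v1]
    have mem : ∀ v, v ∈ (bits 262144 S).image (vec ω) ↔ ∃ t : threeJ3 F ω, rho F ω t *ᵥ vec ω 1 = v := fun v => by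
      simp only [Finset.mem_image, mem_bits]
      refine ⟨fun ⟨p, hp, e⟩ => e ▸ r1 p hp.1 hp.2, fun ⟨t, e⟩ => ?_⟩
      obtain ⟨q, q1, q2, q3⟩ := closed ha top c1 t 1 (by norm_num) b1
      exact ⟨q, ⟨q1, q2⟩, q3.symm.trans e⟩
    obtain ⟨s, hs⟩ := sc
    have k := lines_card hF ((bits 262144 S).image (vec ω)) (fun v hv c => by
      obtain ⟨t, e⟩ := (mem v).1 hv
      have := congrFun (inv_vec e) 0
      rw [c, mulVec_zero, e1] at this
      simp at this) fun v hv c hc => by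
      obtain ⟨t, e⟩ := (mem v).1 hv
      obtain ⟨a, a4, rfl⟩ := val_surj hF h c
      rw [mem]
      interval_cases a
      · exact absurd v0 hc
      · exact ⟨t, by rw [v1, one_smul, e]⟩
      · exact ⟨s * t, by rw [map_mul, ← mulVec_mulVec, e, hs, v2]⟩
      · exact ⟨s * (s * t), by rw [map_mul, map_mul, ← mulVec_mulVec, ← mulVec_mulVec, e, hs, hs, v3 h, smul_smul, sq]⟩
    rw [Finset.card_image_of_injOn (fun p hp q hq e => vec_inj h (mem_bits.1 hp).1 (mem_bits.1 hq).1 e), n1] at k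
    have e2 : {L : Submodule F (F9 → F) | ∃ g ∈ threeJ3 F ω, L = F ∙ ((g : Matrix F9 F9 F) *ᵥ (Pi.single (0 : F9) (1 : F) : F9 → F))} =
        {L : Submodule F (F9 → F) | ∃ v ∈ (bits 262144 S).image (vec ω), L = F ∙ v} := by
      ext L
      simp only [Set.mem_setOf_eq, mem, ← e1]
      exact ⟨fun ⟨t, ht, e⟩ => ⟨_, ⟨⟨t, ht⟩, rfl⟩, e⟩, fun ⟨v, ⟨t, e⟩, e'⟩ => ⟨t, t.2, by rw [e', ← e]; rfl⟩⟩
    rw [e2]; omega
  · intro v w hv hw sv sw
    obtain ⟨p, hp, rfl⟩ := vec_surj hF h v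
    obtain ⟨q, hq, rfl⟩ := vec_surj hF h w
    obtain ⟨t, ht⟩ := r2 p hp (iso_bit h c2 hp hv sv)
    obtain ⟨s, hs⟩ := r2 q hq (iso_bit h c2 hq hw sw)
    refine ⟨(s * t⁻¹ : threeJ3 F ω), (s * t⁻¹).2, 1, one_ne_zero, ?_⟩
    rw [one_smul, ← hs, ← inv_vec ht, mulVec_mulVec, ← map_mul]
    rfl

end Cfsg.Agent.H6.Jl
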