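/- The action of `Co1` on symmetric sets of lattice vectors; faithfulness on spanning sets of pairs. -/
import Cfsg.Agent.H6.LeP
import Cfsg.Agent.H6.Sch6

set_option maxRecDepth 100000
namespace Cfsg.Agent.H6
open MulAction Pointwise Finset

def SymS : Type := {s : Set LL // negCo • s = s}

noncomputable instance instActSym0 : MulAction Co0 SymS where
  smul g s := ⟨g • s.1, by rw [← mul_smul, ← neg_comm, mul_smul, s.2]⟩
  one_smul s := Subtype.ext (one_smul _ s.1)
  mul_smul a b s := Subtype.ext (mul_smul a b s.1)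

noncomputable def symHom : Spor.Co1 →* Equiv.Perm SymS := QuotientGroup.lift _ (toPermHom Co0 SymS) fun z hz => by
  rcases Le.mem_center.1 hz with rfl | rfl
  · exact map_one _
  · exact Equiv.ext fun s => Subtype.ext s.2

noncomputable instance instActSym1 : MulAction Spor.Co1 SymS := MulAction.compHom SymS symHom

theorem smul_pair (g : Co0) (x : LL) : g • ({x, -x} : Set LL) = {g • x, -(g • x)} := by
  rw [← co_neg]; exact Set.image_pair _ _ _

noncomputable def QX (o : ℕ) (S : ℕ → List ℕ) (i : ℕ) : SymS :=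
  ⟨PX o S i, by rw [PX, smul_pair, negCo_smul, neg_neg, Set.pair_comm]⟩

variable {N o : ℕ} {S : ℕ → List ℕ}

theorem IsModel.co1 {g : ℕ → Co0} {nets : ℕ → Net} (h : IsModel N (PX o S) g nets vT) :
    IsModel N (QX o S) (fun l => (g l : Spor.Co1)) nets vT :=
  ⟨⟨h.ok, fun l hl i hi => Subtype.ext (h.cmp l hl i hi)⟩, fun i hi j hj e => h.inj i hi j hj (congrArg Subtype.val e)⟩

theorem pm_of_px {g : Co0} {i : ℕ} (h : g • PX o S i = PX o S i) {r : Rw} (hr : ptR o S i r = true) :
    g • lv r = lv r ∨ g • lv r = -lv r := by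
  rw [PX, LX_eq_lv hr, smul_pair] at h
  exact h.le (Set.mem_insert _ _)

noncomputable def pmC (N o : ℕ) (S : ℕ → List ℕ) (vs : List Rw) (ps : List (ℕ × Rw × Rw × ℕ)) : Bool :=
  List.rec (motive := fun _ => Bool) true (fun a t ih => band ih (band (band (Nat.ble (Nat.succ a.1) N) (ptR o S a.1 a.2.1))
    (band (band (band (memR a.2.2.1) (memR a.2.1)) (band (dotR a.2.2.1 a.2.1 a.2.2.2) (beqb (Nat.beq a.2.2.2 128) false)))
      (beqb (lall (fun s => beqb (band (Nat.beq s.1 a.2.2.1.1) (Nat.beq s.2 a.2.2.1.2)) false)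
        (lapp (lmap (fun b => b.2.1) t) vs)) false)))) ps

theorem pm_list {g : Co0} (H : ∀ i < N, g • PX o S i = PX o S i) {vs : List Rw} (h0 : g ∈ FixV vs)
    {ps : List (ℕ × Rw × Rw × ℕ)} (hc : pmC N o S vs ps = true) : g ∈ FixV (lapp (lmap (fun b => b.2.1) ps) vs) := by
  induction ps with
  | nil => exact h0
  | cons a t ih =>
    obtain ⟨i, r, s, d⟩ := a
    simp only [pmC, band_eq, ble_eq, beqb_eq] at hc
    obtain ⟨h1, ⟨h2, h3⟩, ⟨⟨h4, h5⟩, h6, h7⟩, h8⟩ := hc
    have k := ih h1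
    have hs : g • lv s = lv s := by
      refine k s (by_contra fun c => ?_)
      rw [Bool.eq_false_iff] at h8
      refine h8 ((lall_eq _ _).2 fun x hx => (beqb_eq _ _).2 (Bool.eq_false_iff.2 fun e => c ?_))
      rw [band_eq, beq_eq, beq_eq] at e
      rwa [← show x = s from Prod.ext e.1 e.2]
    refine List.forall_mem_cons.2 ⟨(pm_of_px (H i h2) h3).resolve_right fun e => ?_, k⟩
    have a := dot_of_dotR h6
    have b := co_dot g (lv s) (lv r)
    rw [hs, e, AddSubgroup.coe_neg, dot_neg, coe_lv h4, coe_lv h5] at b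
    have : d = 128 := by omega
    rw [this] at h7; exact absurd h7 (by decide)

theorem faith_fix {vs : List Rw} {ps : List (ℕ × Rw × Rw × ℕ)} (hc : pmC N o S vs ps = true) {ws : List Rw}
    (e : lapp (lmap (fun b => b.2.1) ps) vs = ws) (hb : Nat.card (FixV ws) ≤ 1) : Faith (FixV vs) N (PX o S) :=
  fun g H => Subtype.ext ((Subgroup.eq_bot_iff_forall _).1 ((Subgroup.card_le_one_iff_eq_bot _).1 hb) _ (e ▸ pm_list H g.2 hc))

theorem faith_co1 {r : Rw} (h0 : band (Nat.ble 1 N) (ptR o S 0 r) = true) (hf : Faith (FixV [r]) N (PX o S)) :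
    Faith Spor.Co1 N (QX o S) := fun a H => by
  obtain ⟨g, rfl⟩ := QuotientGroup.mk_surjective a
  rw [band_eq, ble_eq] at h0
  have H' : ∀ i < N, g • PX o S i = PX o S i := fun i hi => congrArg Subtype.val (H i hi)
  refine (QuotientGroup.eq_one_iff _).2 (Le.mem_center.2 ((pm_of_px (H' 0 h0.1) h0.2).imp
    (fun e => congrArg Subtype.val (hf ⟨g, Le.fixV1.2 e⟩ H')) fun e => ?_))
  have := congrArg Subtype.val (hf ⟨negCo * g, Le.fixV1.2 (by rw [mul_smul, e, negCo_smul, neg_neg])⟩ fun i hi => by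
    show (negCo * g) • PX o S i = _
    rw [mul_smul, H' i hi]; exact (QX o S i).2)
  rw [← one_mul g, ← neg_sq, mul_assoc, show negCo * g = 1 from this, mul_one]

theorem lk1_ge1 {gl : List Co0} {l : ℕ} (h : gl.length ≤ l) : ((lk 1 gl l : Co0) : Spor.Co1) = 1 := by
  rw [lk1_ge h]; rfl

end Cfsg.Agent.H6
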