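/- The 23-dimensional representation of `Co2` modulo 13. -/
import Cfsg.Agent.H6.LeA

namespace Cfsg.Agent.H6.LeU
open Finset Cfsg.Spor

def wv (b : ZMod 23) : ZV := fun i => if i = some b then 8 else if i = none ∧ b = 0 then -8 else 0

theorem wv_LS (b : ZMod 23) : LS (wv b) := LS.of_four (by revert b; decide) (by revert b; decide)

def wl (b : ZMod 23) : LL := ⟨wv b, mem_LL.2 (wv_LS b)⟩

def g0 (g : Co2) : Co0 := ⟨g.1, g.2.1⟩

theorem g0_u (g : Co2) : g0 g • (leechU : LL) = leechU := g.2.2

theorem g0_mul (g h : Co2) (x : LL) : g0 (g * h) • x = g0 g • g0 h • x := rfl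

theorem dot_u (x : ZV) : dotInt x vecU = 4 * (x none + x (some 0)) := by
  unfold dotInt
  rw [Fintype.sum_option, Finset.sum_eq_single (0 : ZMod 23)]
  · simp [vecU]; ring
  · intro b _ hb; simp [vecU, hb]
  · simp

theorem perp (g : Co2) (x : LL) :
    ((g0 g • x : LL) : ZV) none + ((g0 g • x : LL) : ZV) (some 0) = (x : ZV) none + (x : ZV) (some 0) := by
  have h := co_dot (g0 g) x leechU
  rw [g0_u] at h
  have h1 := dot_u ((g0 g • x : LL) : ZV)
  have h2 := dot_u (x : ZV)
  change dotInt _ vecU = dotInt _ vecU at h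
  omega

theorem wv_perp (b : ZMod 23) : wv b none + wv b (some 0) = 0 := by revert b; decide

theorem expand (x : LL) (hx : (x : ZV) none + (x : ZV) (some 0) = 0) :
    (8 : ℤ) • x = ∑ b : ZMod 23, (x : ZV) (some b) • wl b := by
  apply Subtype.ext
  rw [AddSubmonoidClass.coe_finset_sum]
  funext i
  rw [Finset.sum_apply]
  change 8 * (x : ZV) i = ∑ b : ZMod 23, (x : ZV) (some b) * wv b i
  cases i with
  | none =>
    rw [Finset.sum_eq_single (0 : ZMod 23)]
    · simp [wv]; omega
    · intro b _ hb; simp [wv, hb]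
    · simp
  | some a =>
    rw [Finset.sum_eq_single a]
    · simp [wv]; ring
    · intro b _ hb; simp [wv, Ne.symm hb]
    · simp

theorem act (g : Co0) (x : LL) (hx : (x : ZV) none + (x : ZV) (some 0) = 0) :
    (8 : ℤ) • (g • x) = ∑ b : ZMod 23, (x : ZV) (some b) • (g • wl b) := by
  have := congrArg (coHom g) (expand x hx)
  rw [map_zsmul, map_sum] at this
  simp only [map_zsmul] at this
  exact this

def NN (g : Co2) (a b : ZMod 23) : ℤ := ((g0 g • wl b : LL) : ZV) (some a)

theorem NN_mul (g h : Co2) (a c : ZMod 23) : 8 * NN (g * h) a c = ∑ b, NN g a b * NN h b c := by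
  have h1 := act (g0 g) (g0 h • wl c) (by rw [perp]; exact wv_perp c)
  have h2 := congrArg (fun y : LL => (y : ZV) (some a)) h1
  simp only [AddSubmonoidClass.coe_finset_sum, Finset.sum_apply] at h2
  change 8 * NN (g * h) a c = ∑ b, NN h b c * NN g a b at h2
  rw [h2]
  exact sum_congr rfl fun b _ => mul_comm _ _

def rep : Co2 →* Matrix (ZMod 23) (ZMod 23) (ZMod 13) where
  toFun g := Matrix.of fun a b => 5 * (NN g a b : ZMod 13)
  map_one' := by
    ext a b
    change 5 * ((wv b (some a) : ℤ) : ZMod 13) = _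
    rw [Matrix.one_apply]
    by_cases h : a = b
    · simp [wv, h]; rfl
    · simp [wv, h]
  map_mul' g h := by
    ext a c
    have h1 := congrArg (Int.cast : ℤ → ZMod 13) (NN_mul g h a c)
    push_cast at h1
    simp only [Matrix.mul_apply, Matrix.of_apply]
    have h2 : ∑ b, 5 * (NN g a b : ZMod 13) * (5 * (NN h b c : ZMod 13)) =
        25 * ∑ b, (NN g a b : ZMod 13) * (NN h b c : ZMod 13) := by
      rw [mul_sum]; exact sum_congr rfl fun b _ => by ring
    rw [h2, ← h1]
    have h13 : (13 : ZMod 13) = 0 := rfl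
    linear_combination (-15 * (NN (g * h) a c : ZMod 13)) * h13

theorem norm_wv (b : ZMod 23) : sqNorm (wv b) = if b = 0 then 128 else 64 := by revert b; decide

theorem fix_wl (g : Co2) (hg : rep g = 1) (b : ZMod 23) : g0 g • wl b = wl b := by
  have hc : ∀ a, (13 : ℤ) ∣ NN g a b - wv b (some a) := by
    intro a
    refine (ZMod.intCast_zmod_eq_zero_iff_dvd (NN g a b - wv b (some a)) 13).1 ?_
    have h1 : rep g a b = rep 1 a b := by rw [hg, map_one]
    change 5 * (NN g a b : ZMod 13) = 5 * ((wv b (some a) : ℤ) : ZMod 13) at h1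
    push_cast
    have h13 : (13 : ZMod 13) = 0 := rfl
    linear_combination 8 * h1 - (3 * ((NN g a b : ZMod 13) - ((wv b (some a) : ℤ) : ZMod 13))) * h13
  set y : ZV := ((g0 g • wl b : LL) : ZV) with hy
  have hn : sqNorm y = sqNorm (wv b) := co_norm _ _
  have hp : y none + y (some 0) = 0 := by rw [hy, perp]; exact wv_perp b
  have hw : sqNorm (wv b) = if b = 0 then 128 else 64 := norm_wv b
  have hle : ∀ i, y i ^ 2 ≤ 128 := fun i => by
    have : y i ^ 2 ≤ sqNorm y := Finset.single_le_sum (f := fun i => y i ^ 2) (fun i _ => sq_nonneg _) (mem_univ i)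
    rw [hn, hw] at this
    split_ifs at this <;> omega
  have hb : ∀ i, -12 < y i ∧ y i < 12 := fun i => by
    have := hle i
    constructor <;> nlinarith
  have h0 : ∀ a, a ≠ b → y (some a) = 0 := fun a ha => by
    have h1 := hc a
    have h2 := hb (some a)
    have h3 : wv b (some a) = 0 := by simp [wv, ha]
    change 13 ∣ y (some a) - _ at h1
    omega
  have hs : sqNorm y = y none ^ 2 + y (some b) ^ 2 := by
    unfold sqNorm
    rw [Fintype.sum_option, Finset.sum_eq_single b]
    · intro a _ ha; simp [h0 a ha]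
    · simp
  have h8 : y (some b) = 8 ∨ y (some b) = -5 := by
    have h1 := hc b
    have h2 := hb (some b)
    have h3 : wv b (some b) = 8 := by simp [wv]
    change 13 ∣ y (some b) - _ at h1
    omega
  rw [hn, hw] at hs
  apply Subtype.ext
  change y = wv b
  by_cases hb0 : b = 0
  · subst hb0
    have h1 : y none = - y (some 0) := by omega
    rw [h1] at hs
    have h2 : y (some 0) = 8 := by
      rcases h8 with h | h
      · exact h
      · rw [h] at hs; simp at hs
    funext i
    cases i with
    | none => simp [wv, h1, h2]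
    | some a =>
      by_cases ha : a = 0
      · simp [wv, ha, h2]
      · simp [wv, ha, h0 a ha]
  · have h1 : y none = 0 := by have := h0 0 (Ne.symm hb0); omega
    rw [h1] at hs
    have h2 : y (some b) = 8 := by
      rcases h8 with h | h
      · exact h
      · rw [h] at hs; simp [hb0] at hs
    funext i
    cases i with
    | none => simp [wv, h1, hb0]
    | some a =>
      by_cases ha : a = b
      · simp [wv, ha, h2]
      · simp [wv, ha, h0 a ha]

theorem rep_inj : Function.Injective rep := by
  rw [injective_iff_map_eq_one]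
  intro g hg
  have h1 : ∀ x : LL, (x : ZV) none + (x : ZV) (some 0) = 0 → (8 : ℤ) • (g0 g • x) = (8 : ℤ) • x := fun x hx => by
    rw [act _ x hx, expand x hx]
    exact sum_congr rfl fun b _ => by rw [fix_wl g hg]
  have h2 : ∀ x : LL, g0 g • x = x := fun x => by
    have h3 := h1 ((8 : ℤ) • x - ((x : ZV) none + (x : ZV) (some 0)) • (leechU : LL)) (by
      change (8 * (x : ZV) none - _ * vecU none) + (8 * (x : ZV) (some 0) - _ * vecU (some 0)) = 0
      simp [vecU]; ring)
    have h4 : g0 g • ((8 : ℤ) • x - ((x : ZV) none + (x : ZV) (some 0)) • (leechU : LL)) =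
        (8 : ℤ) • (g0 g • x) - ((x : ZV) none + (x : ZV) (some 0)) • (g0 g • (leechU : LL)) := by
      rw [co_sub]
      exact congrArg₂ _ (map_zsmul (coHom (g0 g)) _ _) (map_zsmul (coHom (g0 g)) _ _)
    rw [h4, g0_u] at h3
    apply Subtype.ext
    funext i
    have h5 := congrArg (fun y : LL => (y : ZV) i) h3
    change 8 * (8 * ((g0 g • x : LL) : ZV) i - _) = 8 * (8 * (x : ZV) i - _) at h5
    omega
  exact Subtype.ext (Equiv.ext h2)

theorem main : ∃ f : ↥Cfsg.Spor.Co2 →* GL (Fin 23) (ZMod 13), Function.Injective f := by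
  let e : ZMod 23 ≃ Fin 23 := (ZMod.finEquiv 23).symm.toEquiv
  let r := Matrix.reindexAlgEquiv (ZMod 13) (ZMod 13) e
  refine ⟨((r.toRingEquiv.toMonoidHom).comp rep).toHomUnits, fun a b h => rep_inj (r.injective ?_)⟩
  exact congrArg Units.val h

end Cfsg.Agent.H6.LeU
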