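/- The stabiliser of the standard cross is the monomial group. -/
import Cfsg.Agent.H6.LeB
import Cfsg.Prelude.Def_SporadicCombinatorics

namespace Cfsg.Agent.H6.LeV
open MulAction Pointwise Finset

def f8 (p : GolayPt) : LL :=
  ⟨ee p 8, mem_LL.2 (LS.of_four (fun i => by unfold ee; split_ifs <;> rfl) (by rw [sum_ee]; rfl))⟩

theorem ee_single (p : GolayPt) (a : ℤ) : ee p a = Pi.single p a := by
  funext i; simp [ee, Pi.single_apply]

theorem exp8 (x : LL) : (8 : ℤ) • x = ∑ p, (x : ZV) p • f8 p := by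
  apply Subtype.ext
  rw [AddSubmonoidClass.coe_finset_sum]
  funext i
  rw [Finset.sum_apply]
  change 8 * (x : ZV) i = ∑ p, (x : ZV) p * ee p 8 i
  rw [Finset.sum_eq_single i]
  · simp [ee]; ring
  · intro b _ hb; simp [ee, Ne.symm hb]
  · simp

theorem act8 (g : Co0) (x : LL) (i : GolayPt) :
    8 * ((g • x : LL) : ZV) i = ∑ p, (x : ZV) p * ((g • f8 p : LL) : ZV) i := by
  have h := congrArg (coHom g) (exp8 x)
  rw [map_zsmul, map_sum] at h
  simp only [map_zsmul] at h
  have h2 := congrArg (fun y : LL => (y : ZV) i) h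
  simp only [AddSubmonoidClass.coe_finset_sum, Finset.sum_apply] at h2
  exact h2

def PC (g : Co0) : Prop := ∀ v : LL, (v : ZV) ∈ stdCross → ((g • v : LL) : ZV) ∈ stdCross

theorem mon_smul (σ : M24) (c : Finset GolayPt) (hc : c ∈ csets) (x : LL) (i : GolayPt) :
    (((coS c hc * coP σ) • x : LL) : ZV) i = if i ∈ c then -(x : ZV) (σ⁻¹ • i) else (x : ZV) (σ⁻¹ • i) := by
  rw [mul_smul, coS_smul]; rfl

theorem mono {g : Co0} (h : PC g) : ∃ (σ : M24) (c : Finset GolayPt) (hc : c ∈ csets), g = coS c hc * coP σ := by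
  have h1 : ∀ p, ∃ (i : GolayPt) (s : ℤ), (s = 8 ∨ s = -8) ∧ ((g • f8 p : LL) : ZV) = ee i s := fun p => by
    obtain ⟨i, s, a, b⟩ := h (f8 p) ⟨p, 8, Or.inl rfl, ee_single p 8⟩
    exact ⟨i, s, a, b.trans (ee_single i s).symm⟩
  choose τ s hs hτ using h1
  have hinj : Function.Injective τ := fun p q e => by
    by_contra c
    have := co_dot g (f8 p) (f8 q)
    rw [hτ, hτ, e] at this
    change dotInt _ _ = dotInt (ee p 8) (ee q 8) at this
    simp only [dotInt, ee, ite_mul, zero_mul, sum_ite_eq', mem_univ, if_true, if_neg c] at this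
    rcases hs p with a | a <;> rcases hs q with b | b <;> rw [a, b] at this <;> omega
  let σ0 : PG := Equiv.ofBijective τ (Finite.injective_iff_bijective.1 hinj)
  let c : Finset GolayPt := univ.filter fun i => s (σ0.symm i) = -8
  have key : ∀ (x : LL) i, ((g • x : LL) : ZV) i = if i ∈ c then -(x : ZV) (σ0.symm i) else (x : ZV) (σ0.symm i) := by
    intro x i
    have h2 := act8 g x i
    rw [Finset.sum_eq_single (σ0.symm i)] at h2
    · have e : τ (σ0.symm i) = i := σ0.apply_symm_apply i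
      rw [hτ, e] at h2
      simp only [ee, if_true] at h2
      simp only [c, mem_filter, mem_univ, true_and]
      rcases hs (σ0.symm i) with a | a <;> rw [a] at h2 ⊢ <;> simp <;> omega
    · intro b _ hb
      have : i ≠ τ b := fun e => hb (by rw [e]; exact (σ0.symm_apply_apply b).symm)
      rw [hτ]; simp [ee, this]
    · simp
  have hσ : σ0 ∈ M24 := by
    have hsub : σ0 • csets ⊆ csets := by
      rintro _ ⟨b, hb, rfl⟩
      have hy := mem_LL.1 (g • (⟨ind 2 b, mem_LL.2 (LS.ind2 hb)⟩ : LL)).2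
      rcases hy.cases with ⟨-, -, a⟩ | ⟨c', -, a, -⟩
      · convert a using 1
        ext i
        simp only [mem_filter, mem_univ, true_and, key, ind]
        rw [← Finset.inv_smul_mem_iff]
        change σ0.symm i ∈ b ↔ _
        split_ifs <;> simp [*]
      · have := a none
        simp only [sgn, key, ind] at this
        split_ifs at this <;> omega
    exact Set.eq_of_subset_of_ncard_le hsub (Set.ncard_smul_set σ0 csets).ge (Set.toFinite _)
  have hc : c ∈ csets := by
    have hy := mem_LL.1 (g • (⟨v0, mem_LL.2 LS.v0⟩ : LL)).2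
    rcases hy.cases with ⟨a, -⟩ | ⟨c', hc', a, -⟩
    · have := a none
      simp only [key, v0] at this
      split_ifs at this <;> omega
    · convert hc' using 1
      ext i
      have := a i
      simp only [sgn, key, v0] at this
      split_ifs at this <;> first | omega | simp [*]
  refine ⟨⟨σ0, hσ⟩, c, hc, co_ext fun x => funext fun i => ?_⟩
  rw [key, mon_smul]; rfl

theorem pc_mon (σ : M24) (c : Finset GolayPt) (hc : c ∈ csets) : PC (coS c hc * coP σ) := by
  rintro v ⟨p, s, hs, e⟩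
  refine ⟨σ • p, if σ • p ∈ c then -s else s, by split_ifs <;> omega, funext fun i => ?_⟩
  rw [mon_smul, e, ← ee_single, ← ee_single]
  by_cases h : i = σ • p
  · subst h; simp [ee]
  · have : σ⁻¹ • i ≠ p := fun e => h (by rw [← e, smul_inv_smul])
    simp [ee, h, this]

theorem ncard_csets : Nat.card csets = 4096 := by
  rw [← card_golayCode, Nat.card_coe_set_eq, csets, supports, Set.InjOn.ncard_image fun a _ b _ e => support_inj e]
  rfl

theorem card_pc : Nat.card {g : Co0 // PC g} = 4096 * 244823040 := by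
  rw [← card_M24, ← ncard_csets, ← Nat.card_prod]
  refine (Nat.card_congr (Equiv.ofBijective (fun a : csets × M24 => (⟨_, pc_mon a.2 a.1.1 a.1.2⟩ : {g : Co0 // PC g}))
    ⟨?_, ?_⟩)).symm
  · rintro ⟨⟨c, hc⟩, σ⟩ ⟨⟨c', hc'⟩, σ'⟩ e
    have e1 : coS c hc * coP σ = coS c' hc' * coP σ' := congrArg Subtype.val e
    have e2 : ∀ p, σ'⁻¹ • σ • p = p ∧ (σ • p ∈ c ↔ σ • p ∈ c') := fun p => by
      have h1 := mon_smul σ c hc (f8 p) (σ • p)
      rw [e1, mon_smul] at h1
      simp only [f8, ee, inv_smul_smul, if_true] at h1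
      split_ifs at h1 <;> first | omega | simp [*]
    have e3 : σ = σ' := Subtype.ext (Equiv.ext fun p => by
      have := (e2 p).1
      rw [inv_smul_eq_iff] at this
      exact this)
    have e4 : c = c' := by
      ext i
      have := (e2 (σ⁻¹ • i)).2
      rwa [smul_inv_smul] at this
    subst e3 e4; rfl
  · rintro ⟨g, hg⟩
    obtain ⟨σ, c, hc, rfl⟩ := mono hg
    exact ⟨(⟨c, hc⟩, σ), rfl⟩

theorem main : (∀ g : Co0, PC g → ∃ f ∈ golayMonomialMaps, ∀ v : LL, ((g • v : LL) : ZV) = f (v : ZV)) ∧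
    Nat.card {g : Co0 // PC g} = 4096 * 244823040 := by
  refine ⟨fun g hg => ?_, card_pc⟩
  obtain ⟨σ, c, hc, rfl⟩ := mono hg
  exact ⟨_, ⟨σ, σ.2, c, hc, rfl⟩, fun v => funext fun i => mon_smul σ c hc v i⟩

end Cfsg.Agent.H6.LeV
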