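/- Counting the vectors of norm 6 of the Leech lattice by shape. -/
import Cfsg.Agent.H6.LeB
import Cfsg.Agent.H6.LeV

namespace Cfsg.Agent.H6.LeX
open MulAction Finset

theorem ncard_of {α β : Type*} (P : Finset α) (F : α → β) (S : Set β) (h1 : ∀ a ∈ P, F a ∈ S)
    (h2 : ∀ x ∈ S, ∃ a ∈ P, F a = x) (h3 : ∀ a ∈ P, ∀ b ∈ P, F a = F b → a = b) : S.ncard = P.card := by
  have : S = F '' (P : Set α) := Set.ext fun x => ⟨fun h => h2 x h, by rintro ⟨a, ha, rfl⟩; exact h1 a ha⟩
  rw [this, Set.InjOn.ncard_image fun a ha b hb e => h3 a ha b hb e, Set.ncard_coe_finset]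

noncomputable def CC : Finset (Finset GolayPt) := (Set.toFinite csets).toFinset
noncomputable def OO : Finset (Finset GolayPt) := (Set.toFinite octads).toFinset
noncomputable def DD : Finset (Finset GolayPt) := (Set.toFinite dodecads).toFinset
theorem mem_CC {c} : c ∈ CC ↔ c ∈ csets := Set.Finite.mem_toFinset _
theorem mem_OO {c} : c ∈ OO ↔ c ∈ octads := Set.Finite.mem_toFinset _
theorem mem_DD {c} : c ∈ DD ↔ c ∈ dodecads := Set.Finite.mem_toFinset _
theorem card_CC : CC.card = 4096 := by
  rw [CC, ← Set.ncard_eq_toFinset_card, ← Nat.card_coe_set_eq, LeV.ncard_csets]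
theorem card_OO : OO.card = 759 := by rw [OO, ← Set.ncard_eq_toFinset_card, ncard_octads]
theorem card_DD : DD.card = 2576 := by rw [DD, ← Set.ncard_eq_toFinset_card, ncard_dodecads]

theorem card_par (d : Finset GolayPt) (r : ℕ) : (d.powerset.filter fun s => s.card % 2 = r).card =
    ∑ m ∈ range (d.card + 1), d.card.choose m * if m % 2 = r then 1 else 0 := by
  rw [card_filter, Finset.sum_powerset_apply_card (fun m => if m % 2 = r then 1 else 0)]
  rfl

/-! ### odd shapes -/

def yT (a : ℤ) (T : Finset GolayPt) : ZV := fun i => if i ∈ T then a else 1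

theorem sum_yT (f : ℤ → ℤ) (a : ℤ) (T : Finset GolayPt) : ∑ i, f (yT a T i) = (f a - f 1) * T.card + 24 * f 1 := by
  have : ∀ i, f (yT a T i) = (if i ∈ T then f a - f 1 else 0) + f 1 := fun i => by unfold yT; split_ifs <;> ring
  simp only [this, sum_add_distrib, sum_ite_mem, sum_const, nsmul_eq_mul, card_univ, card_golayPt]
  push_cast; ring

theorem yT_LS {a : ℤ} {T : Finset GolayPt} (ha : a % 4 = 1) (h : ((a - 1) * T.card) % 8 = 4) : LS (yT a T) := by
  refine ⟨1, fun i => by unfold yT; split_ifs <;> omega, ?_, ?_⟩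
  · have := sum_yT id a T
    simp only [id] at this
    omega
  · convert univ_mem_csets using 1
    ext i; simp only [mem_filter, mem_univ, true_and, iff_true]; unfold yT; split_ifs <;> omega

theorem abs_sgn (c : Finset GolayPt) (x : ZV) (i : GolayPt) : |sgn c x i| = |x i| := by
  unfold sgn; split_ifs <;> simp

theorem odd_inj {a : ℤ} (ha : a = 5 ∨ a = -3) {c c' T T' : Finset GolayPt} (e : sgn c (yT a T) = sgn c' (yT a T')) :
    c = c' ∧ T = T' := by
  constructor <;> ext i <;> have := congrFun e i <;> simp only [sgn, yT] at this <;>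
    split_ifs at this <;> first | omega | simp [*]

theorem odd_std {x : ZV} (hx : LS x) (hn : sqNorm x = 48) {p : GolayPt} (hp : x p % 2 = 1) :
    ∃ c ∈ csets, ((lev x 3).card = 3 ∧ (lev x 5).card = 0 ∧ sgn c (yT (-3) (lev x 3)) = x) ∨
      ((lev x 3).card = 0 ∧ (lev x 5).card = 1 ∧ sgn c (yT 5 (lev x 5)) = x) := by
  rcases hx.cases with ⟨a, -⟩ | ⟨c, hc, a, -⟩
  · have := a p; omega
  have hl : ∀ k, lev (sgn c x) k = lev x k := fun k => by ext i; rw [mem_lev, mem_lev, abs_sgn]
  have hn' : sqNorm (sgn c x) ≤ 64 := by rw [sqNorm_sgn]; omega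
  have h1 := odd_shape hn' a
  rw [sqNorm_sgn, hl, hl, hl, hl, hn] at h1
  have h7 := not_lev (x := x) (k := 7) (by omega)
  refine ⟨c, hc, ?_⟩
  by_cases h5 : (lev x 5).card = 0
  · refine Or.inl ⟨by omega, h5, ?_⟩
    rw [← sgn_sgn c x]; congr 1; rw [sgn_sgn]
    funext i
    have b1 := not_lev h5 i; have b2 := h7 i; have b3 := a i; have b4 := abs_le_eight hn' i
    rw [← abs_sgn c] at b1 b2
    simp only [yT, mem_lev, ← abs_sgn c x i]
    rcases abs_cases (sgn c x i) with b | b <;> split_ifs <;> omega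
  · refine Or.inr ⟨by omega, by omega, ?_⟩
    rw [← sgn_sgn c x]; congr 1; rw [sgn_sgn]
    funext i
    have b1 := not_lev (x := x) (k := 3) (by omega) i; have b2 := h7 i; have b3 := a i; have b4 := abs_le_eight hn' i
    rw [← abs_sgn c] at b1 b2
    simp only [yT, mem_lev, ← abs_sgn c x i]
    rcases abs_cases (sgn c x i) with b | b <;> split_ifs <;> omega

theorem n3 : {x : ZV | x ∈ leechLattice ∧ sqNorm x = 48 ∧ ∃ i j k, i ≠ j ∧ j ≠ k ∧ i ≠ k ∧ |x i| = 3 ∧ |x j| = 3 ∧
    |x k| = 3}.ncard = 8290304 := by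
  rw [ncard_of (CC ×ˢ powersetCard 3 (univ : Finset GolayPt)) (fun a => sgn a.1 (yT (-3) a.2))]
  · rw [card_product, card_CC, card_powersetCard, card_univ, card_golayPt]; rfl
  · rintro ⟨c, T⟩ h
    rw [mem_product, mem_CC, mem_powersetCard_univ] at h
    refine ⟨mem_LL.2 ((yT_LS (by norm_num) (by rw [h.2]; norm_num)).sgn h.1), ?_, ?_⟩
    · rw [sqNorm_sgn, sqNorm, sum_yT (fun a => a ^ 2), h.2]; norm_num
    · obtain ⟨i, j, k, a, b, c, e⟩ := card_eq_three.1 h.2
      dsimp only at e
      refine ⟨i, j, k, a, c, b, ?_, ?_, ?_⟩ <;> rw [abs_sgn] <;> simp [yT, e]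
  · rintro x ⟨h1, h2, i, -, -, -, -, -, h3, -⟩
    obtain ⟨c, hc, ⟨a, -, b⟩ | ⟨a, -⟩⟩ := odd_std (mem_LL.1 h1) h2 (p := i) (by
      rcases abs_cases (x i) with b | b <;> omega)
    · exact ⟨(c, lev x 3), by rw [mem_product, mem_CC, mem_powersetCard_univ]; exact ⟨hc, a⟩, b⟩
    · exact absurd h3 (not_lev a i)
  · rintro ⟨c, T⟩ - ⟨c', T'⟩ - e
    obtain ⟨rfl, rfl⟩ := odd_inj (Or.inr rfl) e
    rfl

theorem n5 : {x : ZV | x ∈ leechLattice ∧ sqNorm x = 48 ∧ ∃ i, |x i| = 5}.ncard = 98304 := by
  rw [ncard_of (CC ×ˢ powersetCard 1 (univ : Finset GolayPt)) (fun a => sgn a.1 (yT 5 a.2))]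
  · rw [card_product, card_CC, card_powersetCard, card_univ, card_golayPt]; rfl
  · rintro ⟨c, T⟩ h
    rw [mem_product, mem_CC, mem_powersetCard_univ] at h
    refine ⟨mem_LL.2 ((yT_LS (by norm_num) (by rw [h.2]; norm_num)).sgn h.1), ?_, ?_⟩
    · rw [sqNorm_sgn, sqNorm, sum_yT (fun a => a ^ 2), h.2]; norm_num
    · obtain ⟨i, e⟩ := card_eq_one.1 h.2
      dsimp only at e
      refine ⟨i, ?_⟩
      rw [abs_sgn]; simp [yT, e]
  · rintro x ⟨h1, h2, i, h3⟩
    obtain ⟨c, hc, ⟨-, a, -⟩ | ⟨-, a, b⟩⟩ := odd_std (mem_LL.1 h1) h2 (p := i) (by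
      rcases abs_cases (x i) with b | b <;> omega)
    · exact absurd h3 (not_lev a i)
    · exact ⟨(c, lev x 5), by rw [mem_product, mem_CC, mem_powersetCard_univ]; exact ⟨hc, a⟩, b⟩
  · rintro ⟨c, T⟩ - ⟨c', T'⟩ - e
    obtain ⟨rfl, rfl⟩ := odd_inj (Or.inl rfl) e
    rfl

/-! ### even shapes -/

def zE (d s : Finset GolayPt) (p : GolayPt) (a : ℤ) : ZV := fun i =>
  if i ∈ d then (if i ∈ s then -2 else 2) else if i = p then a else 0

theorem sum_zE {d s : Finset GolayPt} (hs : s ⊆ d) {p : GolayPt} {a : ℤ} (hp : p ∉ d ∨ a = 0) :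
    ∑ i, zE d s p a i = 2 * d.card - 4 * s.card + a ∧ sqNorm (zE d s p a) = 4 * d.card + a ^ 2 := by
  constructor
  · have : ∀ i, zE d s p a i = (if i ∈ d then 2 else 0) - (if i ∈ s then 4 else 0) + if i = p then a else 0 := fun i => by
      have := @hs i
      unfold zE; split_ifs <;> simp_all
    simp only [this, sum_add_distrib, sum_sub_distrib, sum_ite_mem, sum_const, nsmul_eq_mul, sum_ite_eq', mem_univ, if_true]
    ring
  · have : ∀ i, zE d s p a i ^ 2 = (if i ∈ d then 4 else 0) + if i = p then a ^ 2 else 0 := fun i => by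
      unfold zE; split_ifs <;> simp_all
    simp only [sqNorm, this, sum_add_distrib, sum_ite_mem, sum_const, nsmul_eq_mul, sum_ite_eq', mem_univ, if_true]
    ring

theorem zE_LS {d s : Finset GolayPt} (hd : d ∈ csets) (hs : s ⊆ d) {p : GolayPt} {a : ℤ} (hp : p ∉ d ∨ a = 0)
    (ha : a % 4 = 0) (h : (2 * d.card - 4 * s.card + a) % 8 = 0) : LS (zE d s p a) := by
  refine ⟨0, fun i => by unfold zE; split_ifs <;> omega, by rw [(sum_zE hs hp).1]; omega, ?_⟩
  convert compl_mem_csets hd using 1
  ext i; simp only [mem_filter, mem_univ, true_and, mem_compl]; unfold zE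
  split_ifs with c1 c2 c3
  · simp [c1]
  · simp [c1]
  · exact ⟨fun _ => c1, fun _ => by omega⟩
  · simp [c1]

theorem n2 : {x : ZV | x ∈ leechLattice ∧ sqNorm x = 48 ∧ ∀ i, x i = 0 ∨ x i = 2 ∨ x i = -2}.ncard = 5275648 := by
  rw [ncard_of (DD.sigma fun d => d.powerset.filter fun s => s.card % 2 = 0) (fun a => zE a.1 a.2 none 0)]
  · rw [card_sigma, sum_congr rfl (g := fun _ => 2048), sum_const, card_DD]
    · rfl
    · intro d hd
      rw [card_par, (mem_DD.1 hd).2]; decide +kernel
  · rintro ⟨d, s⟩ h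
    simp only [mem_sigma, mem_DD, mem_filter, mem_powerset] at h
    refine ⟨mem_LL.2 (zE_LS h.1.1 h.2.1 (Or.inr rfl) rfl (by rw [h.1.2]; omega)), ?_, fun i => ?_⟩
    · rw [(sum_zE h.2.1 (Or.inr rfl)).2, h.1.2]; norm_num
    · dsimp only [zE]; split_ifs <;> simp
  · rintro x ⟨h1, h2, h3⟩
    rcases (mem_LL.1 h1).cases with ⟨-, a, b⟩ | ⟨c, -, a, -⟩
    · have hs : (univ.filter fun i => x i = -2) ⊆ univ.filter fun i => x i % 4 = 2 := fun i hi => by
        simp only [mem_filter, mem_univ, true_and] at hi ⊢; omega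
      have e : zE (univ.filter fun i => x i % 4 = 2) (univ.filter fun i => x i = -2) none 0 = x := by
        funext i
        have := h3 i
        simp only [zE, mem_filter, mem_univ, true_and]
        split_ifs <;> omega
      have h4 := sum_zE hs (p := none) (Or.inr rfl)
      rw [e] at h4
      have c1 : (univ.filter fun i => x i % 4 = 2).card = 12 := by omega
      have c2 : (univ.filter fun i => x i = -2).card % 2 = 0 := by omega
      exact ⟨⟨_, _⟩, mem_sigma.2 ⟨mem_DD.2 ⟨b, c1⟩, mem_filter.2 ⟨mem_powerset.2 hs, c2⟩⟩, e⟩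
    · have := a none; have := h3 none
      simp only [sgn] at *
      split_ifs at * <;> omega
  · rintro ⟨d, s⟩ h ⟨d', s'⟩ h' e
    simp only [mem_sigma, mem_filter, mem_powerset] at h h'
    have e1 : d = d' := by
      ext i; have := congrFun e i; simp only [zE] at this
      split_ifs at this <;> first | omega | exact iff_of_true ‹_› ‹_› | exact iff_of_false ‹_› ‹_›
    subst e1
    have e2 : s = s' := by
      ext i; have := congrFun e i; simp only [zE] at this
      have := @h.2.1 i; have := @h'.2.1 i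
      split_ifs at * <;> first | omega | simp_all
    subst e2; rfl

theorem n4 : {x : ZV | x ∈ leechLattice ∧ sqNorm x = 48 ∧ ∃ i, |x i| = 4}.ncard = 3108864 := by
  rw [ncard_of (OO.sigma fun d => (d.powerset.filter fun s => s.card % 2 = 1) ×ˢ (dᶜ ×ˢ ({4, -4} : Finset ℤ)))
    (fun a => zE a.1 a.2.1 a.2.2.1 a.2.2.2)]
  · rw [card_sigma, sum_congr rfl (g := fun _ => 4096), sum_const, card_OO]
    · rfl
    · intro d hd
      rw [card_product, card_product, card_par, card_compl, card_golayPt, (mem_OO.1 hd).2]; decide +kernel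
  · rintro ⟨d, s, p, a⟩ h
    simp only [mem_sigma, mem_OO, mem_filter, mem_powerset, mem_product, mem_compl, mem_insert, mem_singleton] at h
    obtain ⟨h1, ⟨h2, h3⟩, h4, h5⟩ := h
    dsimp only
    refine ⟨mem_LL.2 (zE_LS h1.1 h2 (Or.inl h4) (by omega) (by rw [h1.2]; omega)), ?_, p, ?_⟩
    · rw [(sum_zE h2 (Or.inl h4)).2, h1.2]; rcases h5 with rfl | rfl <;> norm_num
    · simp only [zE, if_neg h4, if_true]; rcases h5 with rfl | rfl <;> norm_num
  · rintro x ⟨h1, h2, p, h3⟩
    rcases (mem_LL.1 h1).cases with ⟨a0, a, b⟩ | ⟨c, -, a, -⟩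
    · obtain ⟨-, b2, b3, b4⟩ := even_shape (x := x) (by omega) a0
      have b5 := card_of_mem_csets b
      have b6 : 0 < (lev x 4).card := card_pos.2 ⟨p, mem_lev.2 h3⟩
      have b7 : (8 : ℤ) ∣ ∑ i, (x i - 4 * (if i ∈ lev x 4 then 1 else 0) - if i ∈ lev x 2 then x i else 0) :=
        dvd_sum fun i _ => by
          have := not_lev (x := x) (k := 6) (by omega) i
          have := a0 i
          have := abs_le_eight (x := x) (by omega) i
          simp only [mem_lev]
          rcases abs_cases (x i) with b | b <;> split_ifs <;> omega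
      have b8 : (lev x 4).card = 1 := by
        by_contra c
        have e : lev x 2 = ∅ := card_eq_zero.1 (by omega)
        simp only [e, notMem_empty, if_false, sub_zero, sum_sub_distrib, ← mul_sum, sum_ite_mem, sum_const,
          nsmul_eq_mul, mul_one] at b7
        omega
      obtain ⟨q, hq⟩ := lev_one b8
      obtain rfl : p = q := (hq p).1 h3
      have hs : (univ.filter fun i => x i = -2) ⊆ univ.filter fun i => x i % 4 = 2 := fun i hi => by
        simp only [mem_filter, mem_univ, true_and] at hi ⊢; omega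
      have hp : p ∉ univ.filter fun i => x i % 4 = 2 := by
        simp only [mem_filter, mem_univ, true_and]
        rcases abs_cases (x p) with b | b <;> omega
      have e : zE (univ.filter fun i => x i % 4 = 2) (univ.filter fun i => x i = -2) p (x p) = x := by
        funext i
        have := not_lev (x := x) (k := 6) (by omega) i
        have := not_lev (x := x) (k := 8) (by omega) i
        have := a0 i
        have := abs_le_eight (x := x) (by omega) i
        have := (hq i).1
        simp only [zE, mem_filter, mem_univ, true_and]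
        by_cases hi : i = p
        · subst hi
          rcases abs_cases (x i) with b | b <;> split_ifs <;> first | omega | rfl | contradiction
        · have := mt this hi
          rcases abs_cases (x i) with b | b <;> split_ifs <;> omega
      have h4 := (sum_zE hs (a := x p) (Or.inl hp)).1
      rw [e] at h4
      have c1 : (univ.filter fun i => x i % 4 = 2).card = 8 := by omega
      have c2 : (univ.filter fun i => x i = -2).card % 2 = 1 := by rcases abs_cases (x p) with b | b <;> omega
      have c3 : x p ∈ ({4, -4} : Finset ℤ) := by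
        rw [mem_insert, mem_singleton]; rcases abs_cases (x p) with b | b <;> omega
      exact ⟨⟨_, _, p, x p⟩, mem_sigma.2 ⟨mem_OO.2 ⟨b, c1⟩, mem_product.2 ⟨mem_filter.2 ⟨mem_powerset.2 hs, c2⟩,
        mem_product.2 ⟨mem_compl.2 hp, c3⟩⟩⟩, e⟩
    · have := a p
      simp only [sgn] at *
      rcases abs_cases (x p) with b | b <;> split_ifs at * <;> omega
  · rintro ⟨d, s, p, a⟩ h ⟨d', s', p', a'⟩ h' e
    simp only [mem_sigma, mem_filter, mem_powerset, mem_product, mem_compl, mem_insert, mem_singleton] at h h'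
    obtain ⟨-, ⟨h2, -⟩, h4, h5⟩ := h
    obtain ⟨-, ⟨h2', -⟩, h4', h5'⟩ := h'
    have e1 : d = d' := by
      ext i; have := congrFun e i; simp only [zE] at this
      split_ifs at this <;> first | omega | exact iff_of_true ‹_› ‹_› | exact iff_of_false ‹_› ‹_›
    subst e1
    have e2 : s = s' := by
      ext i; have := congrFun e i; simp only [zE] at this
      have := @h2 i; have := @h2' i
      by_cases hi : i ∈ d
      · split_ifs at * <;> first | omega | simp_all
      · exact ⟨fun c => absurd (h2 c) hi, fun c => absurd (h2' c) hi⟩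
    subst e2
    have e3 := congrFun e p
    simp only [zE, if_neg h4, if_true] at e3
    split_ifs at e3 with c
    · subst c e3; rfl
    · omega

end Cfsg.Agent.H6.LeX
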