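/- The monomial group is a maximal subgroup of `Co0`. -/
import Cfsg.Agent.H6.LeM
import Cfsg.Agent.H6.LeV

set_option maxRecDepth 100000
namespace Cfsg.Agent.H6.LeY
open MulAction Pointwise Finset Le LeV

theorem sub_sum {G Ω : Type*} [Group G] [MulAction G Ω] [Finite G] {L K : Subgroup G} (h : L ≤ K) {A : Set Ω}
    (hA : A.Finite) {l : List (Ω × ℕ)} (hp : OrbPart L A l) (hs : (l.map Prod.snd).sum = A.ncard) {x : Ω}
    (hsub : orbit K x ⊆ A) : ∃ s ∈ (l.map Prod.snd).sublists, (orbit K x).ncard = s.sum := by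
  classical
  have a1 := ncard_le_sum (K := L) (l := l.filter fun a => a.1 ∈ orbit K x)
    (fun a ha => hp.1 a (List.mem_filter.1 ha).1) (A := orbit K x) fun y hy => by
      obtain ⟨a, ha, ⟨s, hs⟩, e⟩ := (hp.2 y).1 (hsub hy)
      refine ⟨a, List.mem_filter.2 ⟨ha, ?_⟩, ⟨s, hs⟩, e⟩
      obtain ⟨k, hk⟩ := hy
      have e' : s • a.1 = y := e
      have hk' : (k : G) • x = y := hk
      simp only [decide_eq_true_eq]
      exact ⟨⟨s⁻¹ * k, K.mul_mem (K.inv_mem (h hs)) k.2⟩, by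
        show (s⁻¹ * k) • x = a.1
        rw [mul_smul, hk', ← e', inv_smul_smul]⟩
  have a2 := ncard_le_sum (K := L) (l := l.filter fun a => !decide (a.1 ∈ orbit K x))
    (fun a ha => hp.1 a (List.mem_filter.1 ha).1) (A := A \ orbit K x) fun y hy => by
      obtain ⟨a, ha, ⟨s, hs⟩, e⟩ := (hp.2 y).1 hy.1
      refine ⟨a, List.mem_filter.2 ⟨ha, ?_⟩, ⟨s, hs⟩, e⟩
      have e' : s • a.1 = y := e
      simp only [Bool.not_eq_eq_eq_not, Bool.not_true, decide_eq_false_iff_not]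
      rintro ⟨k, hk⟩
      have hk' : (k : G) • x = a.1 := hk
      exact hy.2 ⟨⟨s * k, K.mul_mem (h hs) k.2⟩, by
        show (s * k) • x = y
        rw [mul_smul, hk', e']⟩
  have a3 : ((l.filter fun a => a.1 ∈ orbit K x).map Prod.snd).sum +
      ((l.filter fun a => !decide (a.1 ∈ orbit K x)).map Prod.snd).sum = A.ncard := by
    rw [← hs, ← List.sum_append, ← List.map_append]
    exact ((List.filter_append_perm _ l).map _).sum_eq
  have a4 := Set.ncard_diff_add_ncard_of_subset hsub hA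
  have a5 : (orbit K x).ncard = ((l.filter fun a => a.1 ∈ orbit K x).map Prod.snd).sum := by omega
  exact ⟨_, List.mem_sublists.2 ((List.filter_sublist (l := l)).map Prod.snd), a5⟩

theorem part1 : OrbPart (cl bg [[0],[2],[3],[5]]) (rng 196560 (LX 4 BS))
    [(LX 4 BS 0, 1104), (LX 4 BS 1104, 97152), (LX 4 BS 98256, 98304)] := by
  rw [← pts_full]
  exact bmod.orbPart (k := 15) (r := 100) (l := [(0,1104),(1104,97152),(98256,98304)]) (by decide +kernel)

theorem part2 : OrbPart (cl bg [[2],[3],[0,5,1],[0,3,0,3,0]]) (Cls [(rU,128)])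
    [(LX 4 BS 89, 2), (LX 4 BS 92, 924), (LX 4 BS 1106, 4928), (LX 4 BS 1232, 42240), (LX 4 BS 102356, 45056)] := by
  obtain ⟨M, h1, h2⟩ := big.pts_cls (cs := [(rU,128)]) (k := fun M => partChk 196560 15 bn vT
    [[2],[3],[0,5,1],[0,3,0,3,0]] 100 [(89,2),(92,924),(1106,4928),(1232,42240),(102356,45056)] M) (by decide +kernel)
  rw [← h1]
  exact bmod.orbPart h2

theorem fix2 : cl bg [[2],[3],[0,5,1],[0,3,0,3,0]] ≤ stabilizer Co0 (lv rU) :=
  bpt2 ▸ bpre.cl_le_stab (p := 0) (by decide +kernel)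

theorem pc_P (σ : M24) : PC (coP σ) := by
  have : coS ∅ empty_mem_csets = 1 := co_ext fun x => by rw [coS_smul, one_smul]; funext i; simp [sgn]
  have h := pc_mon σ ∅ empty_mem_csets
  rwa [this, one_mul] at h

theorem pc_S (c : Finset GolayPt) (hc : c ∈ csets) : PC (coS c hc) := by
  have h := pc_mon 1 c hc
  rwa [map_one, mul_one] at h

theorem std_iff {v : LL} : (v : ZV) ∈ stdCross ↔ v ∈ SC := by
  constructor
  · rintro ⟨p, s, rfl | rfl, e⟩
    · exact Or.inl ⟨p, Subtype.ext (by rw [e, coe_e8, ee_single])⟩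
    · exact Or.inr ⟨p, Subtype.ext (by rw [e, AddSubgroup.coe_neg, coe_e8, ee_single, ← Pi.single_neg])⟩
  · rintro (⟨p, rfl⟩ | ⟨p, rfl⟩)
    · exact ⟨p, 8, Or.inl rfl, by rw [coe_e8, ee_single]⟩
    · exact ⟨p, -8, Or.inr rfl, by rw [AddSubgroup.coe_neg, coe_e8, ee_single, ← Pi.single_neg]⟩

theorem pc_fix {g : Co0} (h : g ∈ FixV [rU1, rU]) : PC g := fun v hv => by
  rw [← fix_UE, fixV2, e8_none] at h
  rw [std_iff, mem_SC] at hv ⊢
  exact ⟨(co_norm g v).trans hv.1, h.2 ▸ hv.2.smul g⟩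

theorem arith : ∀ a ∈ [1104, 97152, 98304].sublists, ∀ s ∈ [2, 924, 4928, 42240, 45056].sublists,
    4096 * 244823040 ∣ a.sum * (s.sum * 454164480) → a.sum * (s.sum * 454164480) ∣ 8315553613086720000 →
    s.sum * 454164480 ∣ 42305421312000 →
    a.sum * (s.sum * 454164480) = 4096 * 244823040 ∨ a.sum * (s.sum * 454164480) = 8315553613086720000 := by
  decide +kernel

theorem main (H : Subgroup Co0) (hH : ∀ g, g ∈ H ↔ PC g) : IsCoatom H := by
  haveI : Finite Co0 := Nat.finite_of_card_ne_zero (by rw [C2.card0]; norm_num)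
  have cH : Nat.card H = 4096 * 244823040 :=
    (Nat.card_congr (Equiv.subtypeEquivRight hH)).trans card_pc
  refine ⟨fun e => ?_, fun K hK => ?_⟩
  · rw [e, Subgroup.card_top, C2.card0] at cH; norm_num at cH
  have hb : ∀ l < 6, bg l ∈ K := fun l hl => hK.le <| by
    interval_cases l
    · exact (hH _).2 (pc_P _)
    · exact H.inv_mem ((hH _).2 (pc_P _))
    · exact (hH _).2 (pc_P _)
    · exact (hH _).2 (pc_P _)
    · exact H.inv_mem ((hH _).2 (pc_P _))
    · exact (hH _).2 (pc_S d0 d0_mem.1)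
  have hc : ∀ ws : List (List ℕ), (∀ w ∈ ws, ∀ l ∈ w, l < 6) → cl bg ws ≤ K := fun ws h =>
    cl_le.2 fun w hw => wp_mem fun l hl => hb l (h w hw l hl)
  obtain ⟨a, ha, ea⟩ := sub_sum (hc _ (by decide)) (by rw [big.all]; exact fin_shell 32) part1
    (by rw [bmod.ncard_rng]; rfl) (x := lv rU) (by
      rw [big.all, ← orbU]; rintro _ ⟨k, rfl⟩; exact ⟨k, rfl⟩)
  obtain ⟨s, hs, es⟩ := sub_sum (K := K ⊓ stabilizer Co0 (lv rU)) (le_inf (hc _ (by decide)) fix2) (fin_cls _) part2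
    (by rw [n93150]; rfl) (x := lv rU1) (by
      rw [← co93150.2]; rintro _ ⟨k, rfl⟩; exact ⟨⟨k, fixV1.2 k.2.2⟩, rfl⟩)
  have e1 : K ⊓ stabilizer Co0 (lv rU) ⊓ stabilizer Co0 (lv rU1) = FixV [rU1, rU] := by
    ext g
    exact ⟨fun h => fixV2.2 ⟨h.2, h.1.2⟩, fun h => ⟨⟨hK.le ((hH _).2 (pc_fix h)), (fixV2.1 h).2⟩, (fixV2.1 h).1⟩⟩
  have c2 := card_eq_ncard_orbit_mul (K ⊓ stabilizer Co0 (lv rU)) (lv rU1)
  rw [e1, cardUU, es] at c2
  have c1 := card_eq_ncard_orbit_mul K (lv rU)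
  rw [c2, ea] at c1
  have d1 := Subgroup.card_dvd_of_le hK.le
  have d2 := Subgroup.card_subgroup_dvd_card K
  have d3 := Subgroup.card_dvd_of_le (inf_le_right : K ⊓ stabilizer Co0 (lv rU) ≤ _)
  rw [cH, c1] at d1
  rw [c1, C2.card0] at d2
  rw [c2, stab_eq, C2.card2] at d3
  rcases arith a ha s hs d1 d2 d3 with e | e
  · exact absurd (Subgroup.eq_of_le_of_card_ge hK.le (by rw [c1, e, cH])) hK.ne
  · exact Subgroup.eq_top_of_card_eq _ (by rw [c1, e, C2.card0])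

end Cfsg.Agent.H6.LeY
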