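/- The stabiliser of a point of the McLaughlin graph is `PSU(4, 3)`. -/
import Cfsg.Agent.H6.LeN
import Cfsg.Agent.H6.ClC1
set_option maxRecDepth 100000
namespace Cfsg.Agent.H6
open MulAction

theorem stab_equiv {G Ω : Type*} [Group G] [MulAction G Ω] (H : Subgroup G) (x : Ω) {T : Subgroup G}
    (h : ∀ g, g ∈ T ↔ g ∈ H ∧ g • x = x) : Nonempty (stabilizer H x ≃* T) := by
  have : T = (stabilizer H x).map H.subtype := by
    ext g; rw [h, Subgroup.mem_map]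
    exact ⟨fun a => ⟨⟨g, a.1⟩, a.2, rfl⟩, by rintro ⟨k, a, rfl⟩; exact ⟨k.2, a⟩⟩
  exact ⟨this ▸ Subgroup.equivMapOfInjective _ _ H.subtype_injective⟩

namespace Le.Z4
noncomputable def ws : List (List ℕ) := [[0,0,0,5,5,1,1],[0,0,4,4,1,1,1],[1,1,4,2,0,5,1,4,4,4,4,4,0,4,1,3,5,0,0],[1,1,4,2,0,5,1,5,5,5,5,5,0,4,1,3,5,0,0],[4,4,1,1,5,1,4,0,4,4,4,4,4,1,5,0,4,0,0,5,5],[4,4,1,1,5,1,4,0,5,5,5,5,5,1,5,0,4,0,0,5,5],[1,4,0,5,1,2,4,4,4,4,4,3,0,4,1,5,0],[1,4,0,5,1,2,5,5,5,5,5,3,0,4,1,5,0]]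
theorem hK : cl Mc.gM ws ≤ stabilizer (FixV [rU,rV]) (LX 4 Mc.mvS 0) := Mc.mvm.toIsPre.cl_le_stab (p := 0) (by decide +kernel)
noncomputable def gK : ℕ → ↥(stabilizer (FixV [rU,rV]) (LX 4 Mc.mvS 0)) := kG hK
theorem heqK : ∀ u w, (fun u w => eqBc Mc.mv Mc.baseM (sel ws u) (sel ws w)) u w = true → wp gK u = wp gK w := fun u w h => Subtype.ext (by rw [gK, wp_kG, wp_kG]; exact Mc.heqM _ _ h)
theorem hgeK : ∀ l, llen Cl.U43.il ≤ l → gK l = 1 := fun _ h => kG_ge _ h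
theorem s0K : Sat Cl.U43.io [] gK := sat_of_eqv heqK hgeK (by decide +kernel)
theorem satK : Sat Cl.U43.io Cl.U43.RU gK := ⟨s0K.inv, rels_of_eqv heqK (by decide +kernel)⟩
theorem neK : wp gK [0] ≠ wp gK [] := fun e => Mc.mvm.ne_of_mp (u := sel ws [0]) (w := sel ws []) (p := 1) (by decide +kernel) (by
  rw [← wp_kG hK, ← wp_kG hK]; exact congrArg Subtype.val e)
theorem pt0 : LX 4 Mc.mvS 0 = lv Mc.rx0 := LX_eq_lv (by decide +kernel)
theorem eqK : Nonempty (stabilizer (FixV [rU,rV]) (LX 4 Mc.mvS 0) ≃* FixV [Mc.rx0, rN, rV]) :=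
  stab_equiv _ _ fun g => by rw [FixV_cons, fix_NV, pt0]; rfl
theorem cardK : Nat.card (stabilizer (FixV [rU,rV]) (LX 4 Mc.mvS 0)) = 3265920 :=
  (Nat.card_congr eqK.some.toEquiv).trans (Mc.co275.down (by norm_num) (by
    rw [show lmap Prod.fst [(rN,144),(rV,152)] = [rN,rV] from rfl, fix_NV, C2.cardM]))
theorem iso : Nonempty (Cl.U43.GU ≃* stabilizer (FixV [rU,rV]) (LX 4 Mc.mvS 0)) :=
  Cl.U43.bdU.equivU Cl.U43.satU satK Cl.U43.topU Cl.U43.cardU Cl.U43.simpleU cardK (u := [0]) (w := []) (by decide +kernel) neK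

theorem main (u v x : LL) (hu : sqNorm (u : ZV) = 48) (hv : sqNorm (v : ZV) = 32 ∧ sqNorm ((u : ZV) - (v : ZV)) = 32)
    (hx : sqNorm (x : ZV) = 32 ∧ sqNorm ((u : ZV) - (x : ZV)) = 32 ∧ dotInt (v : ZV) x = 16)
    (F : Type) [Field F] [Fintype F] (hF : Fintype.card F = 9) :
    Nonempty (↥(stabilizer Co0 u ⊓ stabilizer Co0 v ⊓ stabilizer Co0 x) ≃* PSU 4 F 3) := by
  obtain ⟨g, rfl, rfl⟩ := pair552 hu hv
  obtain ⟨k, a, rfl⟩ := TO.std t275 g ((mc_iff hu).1 hx)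
  have a1 : k • lv rN = g • lv rN := a _ List.mem_cons_self
  have a2 : k • lv rV = g • lv rV := a (lv rV, 24) (by simp)
  obtain ⟨e⟩ := conj_equiv (K := FixV [Mc.rx0, rN, rV])
    (K' := stabilizer Co0 (g • lv rV) ⊓ stabilizer Co0 (g • lv rN) ⊓ stabilizer Co0 (k • lv Mc.rx0)) k fun y => by
      rw [← a1, ← a2]
      simp only [Subgroup.mem_inf, mem_stabilizer_iff, fix_conj, mem_FixV, List.forall_mem_cons, List.not_mem_nil]
      tauto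
  exact ⟨e.symm.trans (eqK.some.symm.trans (iso.some.symm.trans (Cl.U43.isoU hF).some))⟩

end Le.Z4
end Cfsg.Agent.H6
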