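/- The stabiliser of one of the 352 vectors of the Higman-Sims group is `PSU(3, 5)`. -/
import Cfsg.Agent.H6.LeZ4
import Cfsg.Agent.H6.ClU1
set_option maxRecDepth 100000
namespace Cfsg.Agent.H6.Le.Z5
open MulAction

noncomputable def ws : List (List ℕ) := [[1,3,5,5,1,2],[3,0,4,4,2,0],[5,1,4,0,2,4,4,4,4,4,3,1,5,0,4],[5,1,4,0,2,5,5,5,5,5,3,1,5,0,4],[5,1,4,0,4,4,0,4,4,4,4,4,1,5,5,1,5,0,4],[5,1,4,0,4,4,0,5,5,5,5,5,1,5,5,1,5,0,4],[5,1,4,2,0,2,4,4,4,4,4,3,1,3,5,0,4],[5,1,4,2,0,2,5,5,5,5,5,3,1,3,5,0,4]]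
theorem hK : cl Hs.gH ws ≤ stabilizer (FixV [rU1,rV]) (LX 4 Hs.muS 0) := Hs.mum.toIsPre.cl_le_stab (p := 0) (by decide +kernel)
noncomputable def gK : ℕ → ↥(stabilizer (FixV [rU1,rV]) (LX 4 Hs.muS 0)) := kG hK
theorem heqK : ∀ u w, (fun u w => eqBc Hs.mp Hs.baseH (sel ws u) (sel ws w)) u w = true → wp gK u = wp gK w := fun u w h => Subtype.ext (by rw [gK, wp_kG, wp_kG]; exact Hs.heqH _ _ h)
theorem hgeK : ∀ l, llen Cl.U35.il ≤ l → gK l = 1 := fun _ h => kG_ge _ h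
theorem s0K : Sat Cl.U35.io [] gK := sat_of_eqv heqK hgeK (by decide +kernel)
theorem satK : Sat Cl.U35.io Cl.U35.RU gK := ⟨s0K.inv, rels_of_eqv heqK (by decide +kernel)⟩
theorem neK : wp gK [0] ≠ wp gK [] := fun e => Hs.mum.ne_of_mp (u := sel ws [0]) (w := sel ws []) (p := 1) (by decide +kernel) (by
  rw [← wp_kG hK, ← wp_kG hK]; exact congrArg Subtype.val e)
theorem pt0 : LX 4 Hs.muS 0 = lv Hs.rx1 := LX_eq_lv (by decide +kernel)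
theorem eqK : Nonempty (stabilizer (FixV [rU1,rV]) (LX 4 Hs.muS 0) ≃* FixV [Hs.rx1, rV2, rV]) :=
  stab_equiv _ _ fun g => by rw [FixV_cons, fix_V2V, pt0]; rfl
theorem cardK : Nat.card (stabilizer (FixV [rU1,rV]) (LX 4 Hs.muS 0)) = 126000 :=
  (Nat.card_congr eqK.some.toEquiv).trans (Hs.co352.down (by norm_num) (by
    rw [show lmap Prod.fst [(rV2,104),(rV,144)] = [rV2,rV] from rfl, fix_V2V, C3.cardH]))
theorem iso : Nonempty (Cl.U35.GU ≃* stabilizer (FixV [rU1,rV]) (LX 4 Hs.muS 0)) :=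
  Cl.U35.bdU.equivU Cl.U35.satU satK Cl.U35.topU Cl.U35.cardU Cl.U35.simpleU cardK (u := [0]) (w := []) (by decide +kernel) neK

theorem main (v w : LL) (hv : sqNorm (v : ZV) = 48) (hw : sqNorm (w : ZV) = 48) (hvw : dotInt (v : ZV) w = -32)
    (F : Type) [Field F] [Fintype F] (hF : Fintype.card F = 25) {S : Set LL}
    (hS : ∀ x, x ∈ S ↔ sqNorm (x : ZV) = 32 ∧ dotInt (v : ZV) x = 16 ∧ dotInt (w : ZV) x = -24) :
    S.ncard = 352 ∧ (∀ x ∈ S, -w - x ∈ S) ∧ (∀ x ∈ S, ∀ x' ∈ S, ∃ g : Co0, g • v = v ∧ g • w = w ∧ g • x = x') ∧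
    ∀ x ∈ S, Nonempty (↥(stabilizer Co0 v ⊓ stabilizer Co0 w ⊓ stabilizer Co0 x) ≃* PSU 3 F 5) := by
  refine ⟨?_, fun x hx => ?_, ?_⟩
  · obtain ⟨g, rfl, rfl⟩ := pairH hv hw hvw
    rw [← (t352.1.smul g).1]; congr 1; ext x; exact (hS x).trans sw_iff
  · rw [hS] at hx ⊢
    rw [AddSubgroup.coe_sub, AddSubgroup.coe_neg, sqNorm_sub, sqNorm_neg, neg_dot, dot_sub, dot_sub, dot_neg, dot_neg,
      dot_self]
    omega
  obtain ⟨g, rfl, rfl⟩ := pairH hv hw hvw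
  refine ⟨fun x hx y hy => ?_, fun x hx => ?_⟩
  · obtain ⟨k, a, b⟩ := (t352.1.smul g).2 _ _ (sw_iff.1 ((hS x).1 hx)) (sw_iff.1 ((hS y).1 hy))
    simp only [List.map_cons, List.map_nil, List.forall_mem_cons] at a
    exact ⟨k, a.2.1, a.1, b⟩
  obtain ⟨k, a, rfl⟩ := TO.std t352 g (sw_iff.1 ((hS x).1 hx))
  have a1 : k • lv rV2 = g • lv rV2 := a _ List.mem_cons_self
  have a2 : k • lv rV = g • lv rV := a (lv rV, 16) (by simp)
  obtain ⟨e⟩ := conj_equiv (K := FixV [Hs.rx1, rV2, rV])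
    (K' := stabilizer Co0 (g • lv rV) ⊓ stabilizer Co0 (g • lv rV2) ⊓ stabilizer Co0 (k • lv Hs.rx1)) k fun y => by
      rw [← a1, ← a2]
      simp only [Subgroup.mem_inf, mem_stabilizer_iff, fix_conj, mem_FixV, List.forall_mem_cons, List.not_mem_nil]
      tauto
  exact ⟨e.symm.trans (eqK.some.symm.trans (iso.some.symm.trans (Cl.U35.isoU hF).some))⟩

end Cfsg.Agent.H6.Le.Z5
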