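/- The stabiliser of a triangle of minimal vectors is `PSU(6, 2)`. -/
import Cfsg.Agent.H6.LeZ4
import Cfsg.Agent.H6.LeIo1
import Cfsg.Agent.H6.U6b1
set_option maxRecDepth 100000
namespace Cfsg.Agent.H6.Le.Z6
open MulAction

noncomputable def ws : List (List ℕ) := [[],[],[4,1,2,0,2,0,4,0,2,0,4,0,2,0,4,0,2,0,4,0,2,0,4,0,2,0,4,0,2,0,4,0,2,0,4,3,0,5],[2,2,0,0,0,2,0,4,0,2,0,4,0,2,0,4,0,2,0,4,0,2,0,4,0,2,0,4,0,2,0,4,0,2,0,4,1,1,3,3],[1,2,1,4,0,2,2,0,0,2,0,4,0,2,0,4,0,2,0,4,0,2,0,4,0,2,0,4,0,2,0,4,0,2,0,4,0,2,0,4,1,3,3,1,5,0,3,0],[4,3,1,4,0,0,4,1,2,0,2,0,4,0,2,0,4,0,2,0,4,0,2,0,4,0,2,0,4,0,2,0,4,0,2,0,4,0,2,0,4,3,0,5,1,1,5,0,2,5],[3,1,4,3,1,4,3,3,1,0,2,0,4,0,2,0,4,0,2,0,4,0,2,0,4,0,2,0,4,0,2,0,4,0,2,0,4,0,2,0,4,0,2,2,5,0,2,5,0,2],[4,0,4,0,3,0,4,1,2,0,2,0,4,0,2,0,4,0,2,0,4,0,2,0,4,0,2,0,4,0,2,0,4,0,2,0,4,0,2,0,4,3,0,5,1,2,1,5,1,5],[1,2,2,1,4,3,1,4,0,0,2,0,4,0,2,0,4,0,2,0,4,0,2,0,4,0,2,0,4,0,2,0,4,0,2,0,4,0,2,0,4,1,5,0,2,5,0,3,3,0],[],[],[],[4,2,0,4,0,4,3,0,2,0,0,0,2,0,4,0,2,0,4,0,2,0,4,0,2,0,4,0,2,0,4,0,2,0,4,0,2,0,4,0,2,0,4,1,1,3,1,2,5,1,5,1,3,5]]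
theorem hK : cl C2.g2 ws ≤ stabilizer (FixV [rU]) (LX 4 C2.mvS 0) := C2.mvm.toIsPre.cl_le_stab (p := 0) (by decide +kernel)
noncomputable def gK : ℕ → ↥(stabilizer (FixV [rU]) (LX 4 C2.mvS 0)) := kG hK
theorem heqK : ∀ u w, (fun u w => eqBc C2.mp C2.base2 (sel ws u) (sel ws w)) u w = true → wp gK u = wp gK w := fun u w h => Subtype.ext (by rw [gK, wp_kG, wp_kG]; exact C2.heq2 _ _ h)
theorem satK : Sat Fi.io Fi.RU gK := sat_of_test (t := fun w => eqBc C2.mp C2.base2 (sel ws w) (sel ws []))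
  (fun w h => heqK w [] h) (m := 13) (fun _ h => kG_ge _ h) (by decide +kernel)
theorem neK : wp gK [2] ≠ wp gK [] := fun e => C2.mvm.ne_of_mp (u := sel ws [2]) (w := sel ws []) (p := 1) (by decide +kernel) (by
  rw [← wp_kG hK, ← wp_kG hK]; exact congrArg Subtype.val e)
theorem pt0 : LX 4 C2.mvS 0 = lv rX := LX_eq_lv (by decide +kernel)
theorem eqK : Nonempty (stabilizer (FixV [rU]) (LX 4 C2.mvS 0) ≃* FixV [rX, rU]) :=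
  stab_equiv _ _ fun g => by rw [FixV_cons, pt0]; rfl
theorem cardK : Nat.card (stabilizer (FixV [rU]) (LX 4 C2.mvS 0)) = 9196830720 :=
  (Nat.card_congr eqK.some.toEquiv).trans (co4600.down (by norm_num) (C2.card2.trans (by norm_num)))
theorem iso : Nonempty (Fi.GU ≃* stabilizer (FixV [rU]) (LX 4 C2.mvS 0)) :=
  Fi.bdU.equivU Fi.satU satK Fi.topU Fi.cardU Fi.simpleU cardK (u := [2]) (w := []) (by decide +kernel) neK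

theorem main (v w : LL) (hv : sqNorm (v : ZV) = 32) (hw : sqNorm (w : ZV) = 32) (hd : dotInt (v : ZV) w = -16)
    (F : Type) [Field F] [Fintype F] (hF : Fintype.card F = 4) :
    Nonempty (↥(stabilizer Co0 v ⊓ stabilizer Co0 w) ≃* PSU 6 F 2) := by
  obtain ⟨g, rfl⟩ := ex32 hv
  obtain ⟨k, a, rfl⟩ := TO.std t16 g (cz1.2 ⟨hw, hd⟩)
  have a1 : k • lv rU = g • lv rU := a _ List.mem_cons_self
  obtain ⟨e⟩ := conj_equiv (K := FixV [rX, rU])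
    (K' := stabilizer Co0 (g • lv rU) ⊓ stabilizer Co0 (k • lv rX)) k fun y => by
      rw [← a1]
      simp only [Subgroup.mem_inf, mem_stabilizer_iff, fix_conj, fixV2]
      tauto
  obtain ⟨-, -, -, -, -, e2, -⟩ := Fi.isoU hF
  exact ⟨e.symm.trans (eqK.some.symm.trans (iso.some.symm.trans e2))⟩

end Cfsg.Agent.H6.Le.Z6
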