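import Cfsg.Agent.H6.OnL1
set_option maxRecDepth 100000
set_option Elab.async false
namespace Cfsg.Agent.H6.OnL3
open Cfsg.Agent.H6
universe u

noncomputable def wsK : List (List ℕ) := [[3,4,2,3,2,3,4,1,2,3,1,2,3,4,1,2,3,2,0,1,4,5,3,4,2,3,2,3],[3,2,3,2,4,3,5,4,1,0,2,3,2,1,4,3,2,1,3,2,1,4,3,2,3,2,4,3],[3,2,3,2,3,2,0,4,3,2,3,4,5,1,2,3,4,5],[5,4,3,2,1,5,4,3,2,3,4,0,2,3,2,3,2,3],[3,4,5,3,2,3,4,1,2,3,2,3,4,1,2,3,2,0,1,4,5,3,4,0,2,3,2,3],[3,2,3,2,0,4,3,5,4,1,0,2,3,2,1,4,3,2,3,2,1,4,3,2,3,5,4,3],[3,2,3,2,3,2,4,3,2,3,4,5,1,0,2,3,4,5],[5,4,3,2,0,1,5,4,3,2,3,4,2,3,2,3,2,3]]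
theorem hK : cl ON.gON wsK ≤ (cl ON.gON ON.swON) := le_of_le_of_eq (ON.modelON.toIsPre.cl_le_stab (by decide +kernel)) ON.stabON.symm
noncomputable def gK : ℕ → ↥(cl ON.gON ON.swON) := kG hK
theorem heqK : ∀ u w, (fun u w => ON.eqvON (sel wsK u) (sel wsK w)) u w = true → wp gK u = wp gK w := fun u w h => Subtype.ext (by rw [gK, wp_kG, wp_kG]; exact ON.heqON _ _ h)
theorem hgeK : ∀ l, llen il ≤ l → gK l = 1 := fun _ h => kG_ge _ h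
theorem s0K : Sat io [] gK := sat_of_eqv heqK hgeK (by decide +kernel)
theorem satK : Sat io RP gK := ⟨s0K.inv, rels_of_eqv heqK (by decide +kernel)⟩
theorem neK : wp gK [0] ≠ wp gK [] := fun e => ON.modelON.ne_of_mp (u := sel wsK [0]) (w := sel wsK []) (p := 1) (by decide +kernel) (by
  rw [← wp_kG hK, ← wp_kG hK]; exact congrArg Subtype.val e)
theorem hxy : wp gP [0] * wp gP [2] ≠ wp gP [2] * wp gP [0] := by
  rw [← wp_lapp, ← wp_lapp]; exact modelP.ne_of_mp (p := 0) (by decide +kernel)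
theorem main : (commutator ↥(cl ON.gON ON.swON)).index = 2 ∧ Nonempty (GP ≃* commutator ↥(cl ON.gON ON.swON)) :=
  bdP.equiv_comm satP satK topP cardP simpleP hxy (ON.cstabON.trans (by norm_num)) (u := [0]) (by decide +kernel) neK

end Cfsg.Agent.H6.OnL3
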