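import Cfsg.Agent.H6.OnS10
import Cfsg.Agent.H6.OnS11
import Cfsg.Agent.H6.OnS12
import Cfsg.Agent.H6.OnS13
import Cfsg.Agent.H6.OnS14
import Cfsg.Agent.H6.OnS15
set_option maxRecDepth 100000
set_option Elab.async false
namespace Cfsg.Agent.H6.ScON
open Cfsg.Agent.H6
universe u

noncomputable def m893n1 : Net := m893n0.rev
theorem m893n1ok : Net.ok 368280 m893n1 = true := by decide +kernel
noncomputable def m893n3 : Net := m893n2.rev
theorem m893n3ok : Net.ok 368280 m893n3 = true := by decide +kernel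
noncomputable def m893n5 : Net := m893n4.rev
theorem m893n5ok : Net.ok 368280 m893n5 = true := by decide +kernel
noncomputable def m893n7 : Net := m893n6.rev
theorem m893n7ok : Net.ok 368280 m893n7 = true := by decide +kernel
noncomputable def m893n11 : Net := m893n10.rev
theorem m893n11ok : Net.ok 368280 m893n11 = true := by decide +kernel
noncomputable def m893l : List Net := [m893n0,m893n1,m893n2,m893n3,m893n4,m893n5,m893n6,m893n7,m893n8,m893n8,m893n10,m893n11]
noncomputable abbrev m893 : ℕ → Net := lk Net.nil m893l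
theorem m893ok : NetsOk 368280 m893 vT := netsOk_of' (List.forall_mem_cons.2 ⟨m893n0ok, (List.forall_mem_cons.2 ⟨m893n1ok, (List.forall_mem_cons.2 ⟨m893n2ok, (List.forall_mem_cons.2 ⟨m893n3ok, (List.forall_mem_cons.2 ⟨m893n4ok, (List.forall_mem_cons.2 ⟨m893n5ok, (List.forall_mem_cons.2 ⟨m893n6ok, (List.forall_mem_cons.2 ⟨m893n7ok, (List.forall_mem_cons.2 ⟨m893n8ok, (List.forall_mem_cons.2 ⟨m893n8ok, (List.forall_mem_cons.2 ⟨m893n10ok, (List.forall_mem_cons.2 ⟨m893n11ok, (by simp)⟩)⟩)⟩)⟩)⟩)⟩)⟩)⟩)⟩)⟩)⟩)⟩)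

end Cfsg.Agent.H6.ScON
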