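import Cfsg.Agent.H6.OnS16
set_option maxRecDepth 100000
set_option Elab.async false
namespace Cfsg.Agent.H6.ScON
open Cfsg.Agent.H6
universe u

theorem iv894 : Rng (fun l => eqChk 368280 19 m893 vT [io l, l] []) 0 1 := Rng.of_chk (c := 1) (by decide +kernel)
theorem iv897 : Rng (fun l => eqChk 368280 19 m893 vT [io l, l] []) 3 4 := Rng.of_chk (c := 1) (by decide +kernel)
theorem iv900 : Rng (fun l => eqChk 368280 19 m893 vT [io l, l] []) 6 7 := Rng.of_chk (c := 1) (by decide +kernel)
theorem iv903 : Rng (fun l => eqChk 368280 19 m893 vT [io l, l] []) 9 10 := Rng.of_chk (c := 1) (by decide +kernel)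

end Cfsg.Agent.H6.ScON
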