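import Cfsg.Agent.H6.OnS17
import Cfsg.Agent.H6.OnS18
import Cfsg.Agent.H6.OnS19
set_option maxRecDepth 100000
set_option Elab.async false
namespace Cfsg.Agent.H6.ScON
open Cfsg.Agent.H6
universe u

theorem m893s0 : Sat io [] (finG m893ok) := fin_sat_nil' _ (k := 19) (n := 12) (by decide +kernel) (((((((((((iv894.trans iv895).trans iv896).trans iv897).trans iv898).trans iv899).trans iv900).trans iv901).trans iv902).trans iv903).trans iv904).trans iv905)
noncomputable def us906 : List (List ℕ) := [[6,10,7,11,6,10,7,11]]

end Cfsg.Agent.H6.ScON
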