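import Cfsg.Agent.H6.OnS20
import Cfsg.Agent.H6.Sch12
set_option maxRecDepth 100000
set_option Elab.async false
namespace Cfsg.Agent.H6.ScON
open Cfsg.Agent.H6
universe u

theorem lb907 : 3 ≤ Nat.card (cl (finG m893ok) us906) := card_ge_three ((finModel m893ok).ne_one_of_mp (p := 0) (by decide +kernel)) ((finModel m893ok).ne_one_of_mp (p := 0) (by decide +kernel))

end Cfsg.Agent.H6.ScON
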