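import Cfsg.Agent.H6.OnS22
import Cfsg.Agent.H6.OnS23
import Cfsg.Agent.H6.OnS24
set_option maxRecDepth 100000
set_option Elab.async false
namespace Cfsg.Agent.H6.ScON
open Cfsg.Agent.H6
universe u

theorem cv943 : ∀ r ∈ C355, wp (finG m893ok) r ∈ cl (finG m893ok) us906 := (List.forall_mem_cons.2 ⟨cv908, (List.forall_mem_cons.2 ⟨cv909, (List.forall_mem_cons.2 ⟨cv910, (List.forall_mem_cons.2 ⟨cv911, (List.forall_mem_cons.2 ⟨cv912, (List.forall_mem_cons.2 ⟨cv913, (List.forall_mem_cons.2 ⟨cv914, (List.forall_mem_cons.2 ⟨cv915, (List.forall_mem_cons.2 ⟨cv916, (List.forall_mem_cons.2 ⟨cv917, (List.forall_mem_cons.2 ⟨cv918, (List.forall_mem_cons.2 ⟨cv919, (List.forall_mem_cons.2 ⟨cv920, (List.forall_mem_cons.2 ⟨cv921, (List.forall_mem_cons.2 ⟨cv922, (List.forall_mem_cons.2 ⟨cv923, (List.forall_mem_cons.2 ⟨cv924,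 (List.forall_mem_cons.2 ⟨cv925, (List.forall_mem_cons.2 ⟨cv926, (List.forall_mem_cons.2 ⟨cv927, (List.forall_mem_cons.2 ⟨cv928, (List.forall_mem_cons.2 ⟨cv929, (List.forall_mem_cons.2 ⟨cv930, (List.forall_mem_cons.2 ⟨cv931, (List.forall_mem_cons.2 ⟨cv932, (List.forall_mem_cons.2 ⟨cv933, (List.forall_mem_cons.2 ⟨cv934, (List.forall_mem_cons.2 ⟨cv935, (List.forall_mem_cons.2 ⟨cv936, (List.forall_mem_cons.2 ⟨cv937, (List.forall_mem_cons.2 ⟨cv938, (List.forall_mem_cons.2 ⟨cv939, (List.forall_mem_cons.2 ⟨cv940, (List.forall_mem_cons.2 ⟨cv941, (List.forall_mem_cons.2 ⟨cv942, (by simp)⟩)⟩)⟩)⟩)⟩)⟩)⟩)⟩)⟩)⟩)⟩)⟩)⟩)⟩)⟩)⟩)⟩)⟩)⟩)⟩)⟩)⟩)⟩)⟩)⟩)⟩)⟩)⟩)⟩)⟩)⟩)⟩)⟩)⟩)⟩)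

end Cfsg.Agent.H6.ScON
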