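import Cfsg.Agent.H6.OnS25
import Cfsg.Agent.H6.Sch11
set_option maxRecDepth 100000
set_option Elab.async false
namespace Cfsg.Agent.H6.ScON
open Cfsg.Agent.H6
universe u

noncomputable def cv944r : List ℕ := [0,6,10,7,11,6,10,7,11,1,10,6,11,7,10,6,11,7]
theorem cv944p0 : Rng (slChk 368280 19 m893 cv944r) 0 10 := Rng.of_chk (c := 10) (by decide +kernel)
theorem cv944p10 : Rng (slChk 368280 19 m893 cv944r) 10 19 := Rng.of_chk (c := 9) (by decide +kernel)
theorem cv944 : finG m893ok 0 * wp (finG m893ok) [6,10,7,11,6,10,7,11] = wp (finG m893ok) [6,10,7,11,6,10,7,11] * finG m893ok 0 := comm_of_rel m893s0 (r := cv944r) (by decide +kernel) (fin_rel_of_rng m893ok (k := 19) (by norm_num) (cv944p0.trans cv944p10))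
noncomputable def cv947r : List ℕ := [6,6,10,7,11,6,10,7,11,7,10,6,11,7,10,6,11,7]
theorem cv947p0 : Rng (slChk 368280 19 m893 cv947r) 0 10 := Rng.of_chk (c := 10) (by decide +kernel)
theorem cv947p10 : Rng (slChk 368280 19 m893 cv947r) 10 19 := Rng.of_chk (c := 9) (by decide +kernel)
theorem cv947 : finG m893ok 6 * wp (finG m893ok) [6,10,7,11,6,10,7,11] = wp (finG m893ok) [6,10,7,11,6,10,7,11] * finG m893ok 6 := comm_of_rel m893s0 (r := cv947r) (by decide +kernel) (fin_rel_of_rng m893ok (k := 19) (by norm_num) (cv947p0.trans cv947p10))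

end Cfsg.Agent.H6.ScON
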