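import Cfsg.Agent.H6.OnS26
import Cfsg.Agent.H6.OnS27
import Cfsg.Agent.H6.OnS28
set_option maxRecDepth 100000
set_option Elab.async false
namespace Cfsg.Agent.H6.ScON
open Cfsg.Agent.H6
universe u

theorem rl950 : ∀ r ∈ us906, wp gX r = 1 := rels_of_eqv heqX (by decide +kernel)
theorem cov : HasCov Spor.ON 3 := HasCov.of sa831 m893s0 bd530 (le_of_eq_of_le (by norm_num) ON.cardON.ge) (top_of_card ON.cardON lb829) (cs := [([6],[10],2)]) (us := us906) (by decide +kernel) (by decide +kernel) rl950 (List.forall_mem_cons.2 ⟨(List.forall_mem_cons.2 ⟨cv944, (List.forall_mem_cons.2 ⟨(comm_io m893s0 (l := 0) rfl cv944), (List.forall_mem_cons.2 ⟨cv945, (List.forall_mem_cons.2 ⟨(comm_io m893s0 (l := 2) rfl cv945), (List.forall_mem_cons.2 ⟨cv946, (List.forall_mem_cons.2 ⟨(comm_io m893s0 (l := 4) rfl cv946), (List.forall_mem_cons.2 ⟨cv947, (List.forall_mem_cons.2 ⟨(comm_io m893s0 (l := 6) rfl cv947), (List.forall_mem_cons.2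 ⟨cv948, (List.forall_mem_cons.2 ⟨(comm_io m893s0 (l := 8) rfl cv948), (List.forall_mem_cons.2 ⟨cv949, (List.forall_mem_cons.2 ⟨(comm_io m893s0 (l := 10) rfl cv949), (by simp)⟩)⟩)⟩)⟩)⟩)⟩)⟩)⟩)⟩)⟩)⟩)⟩), (by simp)⟩) cv943 lb907
theorem schur : HasCyclicSchurMultiplier Spor.ON 3 := hasCyc_of (a := 0) (b := 1) (pm2.mono (by norm_num)) (pm3.mono (by norm_num)) (PM.ge5 ON.cardON (fl := [2,2,2,2,2,2,2,2,2,3,3,3,3,5,7,7,7,11,19,31]) (l := [7]) (List.forall_mem_cons.2 ⟨pm7, (by simp)⟩) (by decide +kernel)) cov (by norm_num)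

end Cfsg.Agent.H6.ScON
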