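import Cfsg.Agent.H6.OnS2
set_option maxRecDepth 100000
set_option Elab.async false
namespace Cfsg.Agent.H6.ScON
open Cfsg.Agent.H6
universe u

noncomputable def wX0 : List ℕ := [3,4,2,3,2,3,4,1,2,3,1,2,3,4,1,2,3,2,0,1,4,5,3,4,2,3,2,3]
theorem rpX0 : Rep 122760 (finX 122760) (wp ON.gON wX0) (m331 0) := ON.modelON.toIsPre.rep_word (k := 17) (by decide +kernel)
theorem rqX0 : Rep 122760 (finX 122760) (wp ON.gON wX0)⁻¹ (m331 1) := rpX0.inv2 m331ok m331s0 rfl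
noncomputable def wX6 : List ℕ := [3,2,3,2,3,2,4,3,2,3,4,5,1,0,2,3,4,5]
theorem rpX6 : Rep 122760 (finX 122760) (wp ON.gON wX6) (m331 6) := ON.modelON.toIsPre.rep_word (k := 17) (by decide +kernel)
theorem rqX6 : Rep 122760 (finX 122760) (wp ON.gON wX6)⁻¹ (m331 7) := rpX6.inv2 m331ok m331s0 rfl

end Cfsg.Agent.H6.ScON
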