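import Cfsg.Agent.H6.OnS2
set_option maxRecDepth 100000
set_option Elab.async false
namespace Cfsg.Agent.H6.ScON
open Cfsg.Agent.H6
universe u

noncomputable def wX2 : List ℕ := [3,2,3,2,3,2,0,4,3,2,3,4,5,1,2,3,4,5]
theorem rpX2 : Rep 122760 (finX 122760) (wp ON.gON wX2) (m331 2) := ON.modelON.toIsPre.rep_word (k := 17) (by decide +kernel)
theorem rqX2 : Rep 122760 (finX 122760) (wp ON.gON wX2)⁻¹ (m331 3) := rpX2.inv2 m331ok m331s0 rfl
noncomputable def wX8 : List ℕ := [0]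
theorem rpX8 : Rep 122760 (finX 122760) (wp ON.gON wX8) (m331 8) := ON.modelON.toIsPre.rep_word (k := 17) (by decide +kernel)
theorem rqX8 : Rep 122760 (finX 122760) (wp ON.gON wX8)⁻¹ (m331 9) := rpX8.inv2 m331ok m331s0 rfl

end Cfsg.Agent.H6.ScON
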