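import Cfsg.Agent.H6.OnS2
set_option maxRecDepth 100000
set_option Elab.async false
namespace Cfsg.Agent.H6.ScON
open Cfsg.Agent.H6
universe u

noncomputable def wX4 : List ℕ := [3,4,5,3,2,3,4,1,2,3,2,3,4,1,2,3,2,0,1,4,5,3,4,0,2,3,2,3]
theorem rpX4 : Rep 122760 (finX 122760) (wp ON.gON wX4) (m331 4) := ON.modelON.toIsPre.rep_word (k := 17) (by decide +kernel)
theorem rqX4 : Rep 122760 (finX 122760) (wp ON.gON wX4)⁻¹ (m331 5) := rpX4.inv2 m331ok m331s0 rfl
noncomputable def wX10 : List ℕ := [3,2,3,2,3,2,3,7,2,7]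
theorem rpX10 : Rep 122760 (finX 122760) (wp ON.gON wX10) (m331 10) := ON.modelON.toIsPre.rep_word (k := 17) (by decide +kernel)
theorem rqX10 : Rep 122760 (finX 122760) (wp ON.gON wX10)⁻¹ (m331 11) := rpX10.inv2 m331ok m331s0 rfl

end Cfsg.Agent.H6.ScON
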