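import Cfsg.Agent.H6.OnS3
import Cfsg.Agent.H6.OnS4
import Cfsg.Agent.H6.OnS5
set_option maxRecDepth 100000
set_option Elab.async false
namespace Cfsg.Agent.H6.ScON
open Cfsg.Agent.H6
universe u

noncomputable def glX : List Spor.ON := [wp ON.gON wX0,(wp ON.gON wX0)⁻¹,wp ON.gON wX2,(wp ON.gON wX2)⁻¹,wp ON.gON wX4,(wp ON.gON wX4)⁻¹,wp ON.gON wX6,(wp ON.gON wX6)⁻¹,wp ON.gON wX8,(wp ON.gON wX8)⁻¹,wp ON.gON wX10,(wp ON.gON wX10)⁻¹]
noncomputable def gX : ℕ → Spor.ON := lk 1 glX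
theorem modelX : IsModel 122760 (finX 122760) gX m331 vT := ⟨IsPre.ofLists (.cons rpX0 (.cons rqX0 (.cons rpX2 (.cons rqX2 (.cons rpX4 (.cons rqX4 (.cons rpX6 (.cons rqX6 (.cons rpX8 (.cons rqX8 (.cons rpX10 (.cons rqX10 .nil)))))))))))), ON.modelON.inj⟩
theorem hgeX : ∀ l, llen il ≤ l → gX l = 1 := fun _ h => lk1_ge' (gl := glX) (le_of_eq_of_le rfl h)
theorem heqX : ∀ u w, eqBc m331 ON.baseON u w = true → wp gX u = wp gX w := ON.basedON.eqv modelX.toIsPre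
theorem s0X : Sat io [] gX := sat_of_eqv heqX hgeX (by decide +kernel)

end Cfsg.Agent.H6.ScON
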