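import Cfsg.Agent.H6.PermG

namespace Cfsg.Agent.H6
open MulAction Pointwise

variable {G Ω : Type*} [Group G] [MulAction G Ω]

theorem OrbPart.ne [Finite G] {K : Subgroup G} {A : Set Ω} {l : List (Ω × ℕ)} (hp : OrbPart K A l) {n : ℕ}
    (hn : A.ncard = n) (hs : (l.map Prod.snd).sum = n) {a b : Ω × ℕ} {l1 l2 l3 : List (Ω × ℕ)}
    (hl : l = l1 ++ a :: (l2 ++ b :: l3)) : orbit K a.1 ≠ orbit K b.1 := fun e => by
  have hb : b ∈ l := by simp [hl]
  have h1 := ncard_le_sum (K := K) (l := l1 ++ a :: (l2 ++ l3)) (A := A)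
    (fun c hc => hp.1 c (by rw [hl]; simp only [List.mem_append, List.mem_cons] at hc ⊢; tauto)) fun y hy => by
      obtain ⟨c, hc, h⟩ := (hp.2 y).1 hy
      by_cases e' : c = b
      · exact ⟨a, by simp, by subst e'; have h' : y ∈ orbit K c.1 := h; rw [← e] at h'; exact h'⟩
      · exact ⟨c, by rw [hl] at hc; simp only [List.mem_append, List.mem_cons] at hc ⊢; tauto, h⟩
  have h2 : 0 < b.2 := by
    rw [← hp.1 b hb]; exact (Set.ncard_pos (s := orbit K b.1) (Set.finite_range _)).2 ⟨_, mem_orbit_self _⟩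
  rw [hl] at hs
  simp only [List.map_append, List.map_cons, List.sum_append, List.sum_cons] at hs h1
  omega

theorem exists_quot_orbit2 [Finite G] {H : Subgroup G} {x : Ω} (hH : H = stabilizer G x) {l : List (Ω × ℕ)}
    (hp : OrbPart (stabilizer G x) (orbit G x) l) {n : ℕ} (hn : (orbit G x).ncard = n)
    (hs : (l.map Prod.snd).sum = n) {a b : Ω × ℕ} {l1 l2 l3 : List (Ω × ℕ)} (hl : l = l1 ++ a :: (l2 ++ b :: l3)) :
    ∃ q1 q2 : G ⧸ H, orbit H q1 ≠ orbit H q2 ∧ (orbit H q1).ncard = a.2 ∧ (orbit H q2).ncard = b.2 := by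
  have ha : a ∈ l := by simp [hl]
  have hb : b ∈ l := by simp [hl]
  obtain ⟨g, hg⟩ := hp.mem ha
  obtain ⟨k, hk⟩ := hp.mem hb
  refine ⟨g, k, fun e => hp.ne hn hs hl ?_, ?_, ?_⟩
  · have : (g : G ⧸ H) ∈ orbit H (k : G ⧸ H) := e ▸ mem_orbit_self _
    obtain ⟨⟨s, hs⟩, e1⟩ := this
    have e2 : ((s * k : G) : G ⧸ H) = g := e1
    rw [QuotientGroup.eq, hH, mem_stabilizer_iff, mul_smul, inv_smul_eq_iff, mul_smul] at e2
    rw [orbit_eq_iff, ← hg, ← hk]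
    exact ⟨⟨s, hH ▸ hs⟩, e2.symm⟩
  · rw [ncard_orbit_quot hH, ← hp.1 a ha, ← hg, hH]
  · rw [ncard_orbit_quot hH, ← hp.1 b hb, ← hk, hH]

end Cfsg.Agent.H6
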