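import Cfsg.Agent.H6.ScA2
set_option maxRecDepth 100000
set_option Elab.async false
namespace Cfsg.Agent.H6.ScHe
open Cfsg.Agent.H6
universe u

noncomputable def wX0 : List ℕ := [3,0,2,3,4,6,1,2,3,2,1,6,3,2,1,3,2,4,3,6,3,2,1,3,2]
theorem rpX0 : Rep 2058 (finX 2058) (wp He.gHe wX0) (m2 0) := He.modelHe.toIsPre.rep_word (k := 12) (by decide +kernel)
theorem rqX0 : Rep 2058 (finX 2058) (wp He.gHe wX0)⁻¹ (m2 1) := rpX0.inv2 m2ok m2s0 rfl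
noncomputable def wX2 : List ℕ := [5,2,3,6,1,2,3,5,4,3,2,1,6,3,2,3,5,4,2,3,2,5,4,3,5]
theorem rpX2 : Rep 2058 (finX 2058) (wp He.gHe wX2) (m2 2) := He.modelHe.toIsPre.rep_word (k := 12) (by decide +kernel)
theorem rqX2 : Rep 2058 (finX 2058) (wp He.gHe wX2)⁻¹ (m2 3) := rpX2.inv2 m2ok m2s0 rfl
noncomputable def wX4 : List ℕ := [6,5,1,2,3,6,2,3,1,2,3,6,1,2,3,2,1,4,3,6,5,3,2,3,2,0,5,4,3,5,6]
theorem rpX4 : Rep 2058 (finX 2058) (wp He.gHe wX4) (m2 4) := He.modelHe.toIsPre.rep_word (k := 12) (by decide +kernel)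
theorem rqX4 : Rep 2058 (finX 2058) (wp He.gHe wX4)⁻¹ (m2 5) := rpX4.inv2 m2ok m2s0 rfl
noncomputable def wX6 : List ℕ := [3,5,2,3,6,1,2,3,5,4,3,2,1,6,3,4,2,3,5,2,3,2,3,5,4,3,6,5,6,5]
theorem rpX6 : Rep 2058 (finX 2058) (wp He.gHe wX6) (m2 6) := He.modelHe.toIsPre.rep_word (k := 12) (by decide +kernel)
theorem rqX6 : Rep 2058 (finX 2058) (wp He.gHe wX6)⁻¹ (m2 7) := rpX6.inv2 m2ok m2s0 rfl
noncomputable def wX8 : List ℕ := [2,3,4,3,2,3,6,1,2,3,5,4,3,2,1,5,6,3,4,2,3,2,0,6,5,6,5]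
theorem rpX8 : Rep 2058 (finX 2058) (wp He.gHe wX8) (m2 8) := He.modelHe.toIsPre.rep_word (k := 12) (by decide +kernel)
theorem rqX8 : Rep 2058 (finX 2058) (wp He.gHe wX8)⁻¹ (m2 9) := rpX8.inv2 m2ok m2s0 rfl
noncomputable def wX10 : List ℕ := [3,2,3,4,1,2,3,5,6,3,2,3,0,1,2,3,5,6,3,2,1,6,5,3,2,3,2,0,6,3,5,6,3,5]
theorem rpX10 : Rep 2058 (finX 2058) (wp He.gHe wX10) (m2 10) := He.modelHe.toIsPre.rep_word (k := 12) (by decide +kernel)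
theorem rqX10 : Rep 2058 (finX 2058) (wp He.gHe wX10)⁻¹ (m2 11) := rpX10.inv2 m2ok m2s0 rfl
noncomputable def glX : List Spor.He := [wp He.gHe wX0,(wp He.gHe wX0)⁻¹,wp He.gHe wX2,(wp He.gHe wX2)⁻¹,wp He.gHe wX4,(wp He.gHe wX4)⁻¹,wp He.gHe wX6,(wp He.gHe wX6)⁻¹,wp He.gHe wX8,(wp He.gHe wX8)⁻¹,wp He.gHe wX10,(wp He.gHe wX10)⁻¹]
noncomputable def gX : ℕ → Spor.He := lk 1 glX
theorem modelX : IsModel 2058 (finX 2058) gX m2 vT := ⟨IsPre.ofLists (.cons rpX0 (.cons rqX0 (.cons rpX2 (.cons rqX2 (.cons rpX4 (.cons rqX4 (.cons rpX6 (.cons rqX6 (.cons rpX8 (.cons rqX8 (.cons rpX10 (.cons rqX10 .nil)))))))))))), He.modelHe.inj⟩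
theorem hgeX : ∀ l, llen il ≤ l → gX l = 1 := fun _ h => lk1_ge' (gl := glX) (le_of_eq_of_le rfl h)
theorem heqX : ∀ u w, eqBc m2 He.baseHe u w = true → wp gX u = wp gX w := He.basedHe.eqv modelX.toIsPre
theorem s0X : Sat io [] gX := sat_of_eqv heqX hgeX (by decide +kernel)

end Cfsg.Agent.H6.ScHe
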