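import Cfsg.Agent.H6.ScB7
set_option maxRecDepth 100000
set_option Elab.async false
namespace Cfsg.Agent.H6.ScSuz
open Cfsg.Agent.H6
universe u

theorem cv749 : wp (finG m709ok) [2,0,2,0,2,0,2,0] ∈ cl (finG m709ok) us734 := mem_cl_of_eqv (eqv_of_faith (finModel m709ok) (faith_fin 70866) 17) (R := [[2,0,2,0,2,0,2,0]]) (sl := [[]]) (by decide +kernel) _ (List.mem_singleton_self _)
theorem cv752 : wp (finG m709ok) [4,4] ∈ cl (finG m709ok) us734 := mem_cl_of_eqv (eqv_of_faith (finModel m709ok) (faith_fin 70866) 17) (R := [[4,4]]) (sl := [[]]) (by decide +kernel) _ (List.mem_singleton_self _)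
theorem cv755 : wp (finG m709ok) [4,0,3,0,2,5,0,0,0,3,1,1,1] ∈ cl (finG m709ok) us734 := mem_cl_of_eqv (eqv_of_faith (finModel m709ok) (faith_fin 70866) 17) (R := [[4,0,3,0,2,5,0,0,0,3,1,1,1]]) (sl := [[]]) (by decide +kernel) _ (List.mem_singleton_self _)
theorem cv758 : wp (finG m709ok) [6,6] ∈ cl (finG m709ok) us734 := mem_cl_of_eqv (eqv_of_faith (finModel m709ok) (faith_fin 70866) 17) (R := [[6,6]]) (sl := [[0]]) (by decide +kernel) _ (List.mem_singleton_self _)
theorem cv761 : wp (finG m709ok) [7,5,7,0,0,4,1,1,6,4,6,5,3,0,4,1,3,5] ∈ cl (finG m709ok) us734 := mem_cl_of_eqv (eqv_of_faith (finModel m709ok) (faith_fin 70866) 17) (R := [[7,5,7,0,0,4,1,1,6,4,6,5,3,0,4,1,3,5]]) (sl := [[]]) (by decide +kernel) _ (List.mem_singleton_self _)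
theorem cv764 : wp (finG m709ok) [8,8,8] ∈ cl (finG m709ok) us734 := mem_cl_of_eqv (eqv_of_faith (finModel m709ok) (faith_fin 70866) 17) (R := [[8,8,8]]) (sl := [[]]) (by decide +kernel) _ (List.mem_singleton_self _)
theorem cv767 : wp (finG m709ok) [9,2,8,2] ∈ cl (finG m709ok) us734 := mem_cl_of_eqv (eqv_of_faith (finModel m709ok) (faith_fin 70866) 17) (R := [[9,2,8,2]]) (sl := [[]]) (by decide +kernel) _ (List.mem_singleton_self _)
theorem cv770 : wp (finG m709ok) [10,10] ∈ cl (finG m709ok) us734 := mem_cl_of_eqv (eqv_of_faith (finModel m709ok) (faith_fin 70866) 17) (R := [[10,10]]) (sl := [[0]]) (by decide +kernel) _ (List.mem_singleton_self _)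
theorem cv773 : wp (finG m709ok) [11,2,10,2] ∈ cl (finG m709ok) us734 := mem_cl_of_eqv (eqv_of_faith (finModel m709ok) (faith_fin 70866) 17) (R := [[11,2,10,2]]) (sl := [[]]) (by decide +kernel) _ (List.mem_singleton_self _)
theorem cv776 : wp (finG m709ok) [11,8,5,9,11,8,10,8,4,9,10,9] ∈ cl (finG m709ok) us734 := mem_cl_of_eqv (eqv_of_faith (finModel m709ok) (faith_fin 70866) 17) (R := [[11,8,5,9,11,8,10,8,4,9,10,9]]) (sl := [[]]) (by decide +kernel) _ (List.mem_singleton_self _)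

end Cfsg.Agent.H6.ScSuz
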