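import Cfsg.Agent.H6.ScB7
set_option maxRecDepth 100000
set_option Elab.async false
namespace Cfsg.Agent.H6.ScSuz
open Cfsg.Agent.H6
universe u

theorem cv748 : wp (finG m709ok) [2,2] ∈ cl (finG m709ok) us734 := mem_cl_of_eqv (eqv_of_faith (finModel m709ok) (faith_fin 70866) 17) (R := [[2,2]]) (sl := [[]]) (by decide +kernel) _ (List.mem_singleton_self _)
theorem cv751 : wp (finG m709ok) [3,1,1,1,3,0,3,0,2,1,2,0,0,0,2,1,1] ∈ cl (finG m709ok) us734 := mem_cl_of_eqv (eqv_of_faith (finModel m709ok) (faith_fin 70866) 17) (R := [[3,1,1,1,3,0,3,0,2,1,2,0,0,0,2,1,1]]) (sl := [[]]) (by decide +kernel) _ (List.mem_singleton_self _)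
theorem cv754 : wp (finG m709ok) [4,0,2,4,0,2,4,0,2] ∈ cl (finG m709ok) us734 := mem_cl_of_eqv (eqv_of_faith (finModel m709ok) (faith_fin 70866) 17) (R := [[4,0,2,4,0,2,4,0,2]]) (sl := [[]]) (by decide +kernel) _ (List.mem_singleton_self _)
theorem cv757 : wp (finG m709ok) [5,1,5,3,4,0,4,0,3,1] ∈ cl (finG m709ok) us734 := mem_cl_of_eqv (eqv_of_faith (finModel m709ok) (faith_fin 70866) 17) (R := [[5,1,5,3,4,0,4,0,3,1]]) (sl := [[]]) (by decide +kernel) _ (List.mem_singleton_self _)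
theorem cv760 : wp (finG m709ok) [7,2,6,2] ∈ cl (finG m709ok) us734 := mem_cl_of_eqv (eqv_of_faith (finModel m709ok) (faith_fin 70866) 17) (R := [[7,2,6,2]]) (sl := [[]]) (by decide +kernel) _ (List.mem_singleton_self _)
theorem cv763 : wp (finG m709ok) [7,5,0,5,1,1,6,4,0,4,6,0,2,0,3,5,1,1,1,4,0,4] ∈ cl (finG m709ok) us734 := mem_cl_of_eqv (eqv_of_faith (finModel m709ok) (faith_fin 70866) 17) (R := [[7,5,0,5,1,1,6,4,0,4,6,0,2,0,3,5,1,1,1,4,0,4]]) (sl := [[]]) (by decide +kernel) _ (List.mem_singleton_self _)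
theorem cv766 : wp (finG m709ok) [9,0,8,1] ∈ cl (finG m709ok) us734 := mem_cl_of_eqv (eqv_of_faith (finModel m709ok) (faith_fin 70866) 17) (R := [[9,0,8,1]]) (sl := [[]]) (by decide +kernel) _ (List.mem_singleton_self _)
theorem cv769 : wp (finG m709ok) [8,5,9,7,0,0,8,4,9,1,1,7] ∈ cl (finG m709ok) us734 := mem_cl_of_eqv (eqv_of_faith (finModel m709ok) (faith_fin 70866) 17) (R := [[8,5,9,7,0,0,8,4,9,1,1,7]]) (sl := [[0]]) (by decide +kernel) _ (List.mem_singleton_self _)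
theorem cv772 : wp (finG m709ok) [11,0,10,1] ∈ cl (finG m709ok) us734 := mem_cl_of_eqv (eqv_of_faith (finModel m709ok) (faith_fin 70866) 17) (R := [[11,0,10,1]]) (sl := [[]]) (by decide +kernel) _ (List.mem_singleton_self _)
theorem cv775 : wp (finG m709ok) [11,4,10,9,4,8] ∈ cl (finG m709ok) us734 := mem_cl_of_eqv (eqv_of_faith (finModel m709ok) (faith_fin 70866) 17) (R := [[11,4,10,9,4,8]]) (sl := [[]]) (by decide +kernel) _ (List.mem_singleton_self _)

end Cfsg.Agent.H6.ScSuz
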