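import Cfsg.Agent.H6.ScC8
import Cfsg.Agent.H6.ScC9
import Cfsg.Agent.H6.ScC10
import Cfsg.Agent.H6.ScC11
import Cfsg.Agent.H6.ScC12
set_option maxRecDepth 100000
set_option Elab.async false
namespace Cfsg.Agent.H6.ScFi22
open Cfsg.Agent.H6
universe u

noncomputable def m1037l : List Net := [m1037n0,m1037n1,m1037n2,m1037n2,m1037n4,m1037n5,m1037n6,m1037n6,m1037n8,m1037n8,m1037n10,m1037n10,m1037n12,m1037n12]
noncomputable abbrev m1037 : ℕ → Net := lk Net.nil m1037l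
theorem m1037ok : NetsOk 213488 m1037 vT := netsOk_of' (List.forall_mem_cons.2 ⟨m1037n0ok, (List.forall_mem_cons.2 ⟨m1037n1ok, (List.forall_mem_cons.2 ⟨m1037n2ok, (List.forall_mem_cons.2 ⟨m1037n2ok, (List.forall_mem_cons.2 ⟨m1037n4ok, (List.forall_mem_cons.2 ⟨m1037n5ok, (List.forall_mem_cons.2 ⟨m1037n6ok, (List.forall_mem_cons.2 ⟨m1037n6ok, (List.forall_mem_cons.2 ⟨m1037n8ok, (List.forall_mem_cons.2 ⟨m1037n8ok, (List.forall_mem_cons.2 ⟨m1037n10ok, (List.forall_mem_cons.2 ⟨m1037n10ok, (List.forall_mem_cons.2 ⟨m1037n12ok, (List.forall_mem_cons.2 ⟨m1037n12ok, (by simp)⟩)⟩)⟩)⟩)⟩)⟩)⟩)⟩)⟩)⟩)⟩)⟩)⟩)⟩)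

end Cfsg.Agent.H6.ScFi22
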