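import Cfsg.Agent.H6.ScC18
import Cfsg.Agent.H6.ScC19
import Cfsg.Agent.H6.ScC20
set_option maxRecDepth 100000
set_option Elab.async false
namespace Cfsg.Agent.H6.ScFi22
open Cfsg.Agent.H6
universe u

theorem cv1105 : ∀ r ∈ C487, wp (finG m1037ok) r ∈ cl (finG m1037ok) us1052 := (List.forall_mem_cons.2 ⟨cv1065, (List.forall_mem_cons.2 ⟨cv1066, (List.forall_mem_cons.2 ⟨cv1067, (List.forall_mem_cons.2 ⟨cv1068, (List.forall_mem_cons.2 ⟨cv1069, (List.forall_mem_cons.2 ⟨cv1070, (List.forall_mem_cons.2 ⟨cv1071, (List.forall_mem_cons.2 ⟨cv1072, (List.forall_mem_cons.2 ⟨cv1073, (List.forall_mem_cons.2 ⟨cv1074, (List.forall_mem_cons.2 ⟨cv1075, (List.forall_mem_cons.2 ⟨cv1076, (List.forall_mem_cons.2 ⟨cv1077, (List.forall_mem_cons.2 ⟨cv1078, (List.forall_mem_cons.2 ⟨cv1079, (List.forall_mem_cons.2 ⟨cv1080,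 (List.forall_mem_cons.2 ⟨cv1081, (List.forall_mem_cons.2 ⟨cv1082, (List.forall_mem_cons.2 ⟨cv1083, (List.forall_mem_cons.2 ⟨cv1084, (List.forall_mem_cons.2 ⟨cv1085, (List.forall_mem_cons.2 ⟨cv1086, (List.forall_mem_cons.2 ⟨cv1087, (List.forall_mem_cons.2 ⟨cv1088, (List.forall_mem_cons.2 ⟨cv1089, (List.forall_mem_cons.2 ⟨cv1090, (List.forall_mem_cons.2 ⟨cv1091, (List.forall_mem_cons.2 ⟨cv1092, (List.forall_mem_cons.2 ⟨cv1093, (List.forall_mem_cons.2 ⟨cv1094, (List.forall_mem_cons.2 ⟨cv1095, (List.forall_mem_cons.2 ⟨cv1096, (List.forall_mem_cons.2 ⟨cv1097, (List.forall_mem_cons.2 ⟨cv1098, (List.forall_mem_cons.2 ⟨cv1099, (List.forall_mem_cons.2 ⟨cv1100, (List.forall_mem_cons.2 ⟨cv1101, (List.forall_mem_cons.2 ⟨cv1102, (List.forall_mem_cons.2 ⟨cv1103, (List.forall_mem_cons.2 ⟨cv1104, (by simp)⟩)⟩)⟩)⟩)⟩)⟩)⟩)⟩)⟩)⟩)⟩)⟩)⟩)⟩)⟩)⟩)⟩)⟩)⟩)⟩)⟩)⟩)⟩)⟩)⟩)⟩)⟩)⟩)⟩)⟩)⟩)⟩)⟩)⟩)⟩)⟩)⟩)⟩)⟩)⟩)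

end Cfsg.Agent.H6.ScFi22
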