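import Cfsg.Agent.H6.ScC22
import Cfsg.Agent.H6.ScC23
import Cfsg.Agent.H6.ScC24
set_option maxRecDepth 100000
set_option Elab.async false
namespace Cfsg.Agent.H6.ScFi22
open Cfsg.Agent.H6
universe u

theorem rl1120 : ∀ r ∈ us1052, wp gX r = 1 := rels_of_eqv heqX (by decide +kernel)
theorem cov : HasCov Spor.Fi22 6 := HasCov.of sa819 m1037s0 bd558 (le_of_eq_of_le (by norm_num) Fi.cardFi22.ge) (top_of_card Fi.cardFi22 lb814) (cs := [([2,1,10],[7,0,6],5),([4],[13,7,1],2)]) (us := us1052) (by decide +kernel) (by decide +kernel) rl1120 (List.forall_mem_cons.2 ⟨(List.forall_mem_cons.2 ⟨cv1106, (List.forall_mem_cons.2 ⟨(comm_io m1037s0 (l := 0) rfl cv1106), (List.forall_mem_cons.2 ⟨cv1107, (List.forall_mem_cons.2 ⟨(comm_io m1037s0 (l := 2) rfl cv1107), (List.forall_mem_cons.2 ⟨cv1108, (List.forall_mem_cons.2 ⟨(comm_io m1037s0 (l := 4) rfl cv1108), (List.forall_mem_cons.2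 ⟨cv1109, (List.forall_mem_cons.2 ⟨(comm_io m1037s0 (l := 6) rfl cv1109), (List.forall_mem_cons.2 ⟨cv1110, (List.forall_mem_cons.2 ⟨(comm_io m1037s0 (l := 8) rfl cv1110), (List.forall_mem_cons.2 ⟨cv1111, (List.forall_mem_cons.2 ⟨(comm_io m1037s0 (l := 10) rfl cv1111), (List.forall_mem_cons.2 ⟨cv1112, (List.forall_mem_cons.2 ⟨(comm_io m1037s0 (l := 12) rfl cv1112), (by simp)⟩)⟩)⟩)⟩)⟩)⟩)⟩)⟩)⟩)⟩)⟩)⟩)⟩)⟩), (List.forall_mem_cons.2 ⟨(List.forall_mem_cons.2 ⟨cv1113, (List.forall_mem_cons.2 ⟨(comm_io m1037s0 (l := 0) rfl cv1113), (List.forall_mem_cons.2 ⟨cv1114, (List.forall_mem_cons.2 ⟨(comm_io m1037s0 (l := 2) rfl cv1114), (List.forall_mem_cons.2 ⟨cv1115, (List.forall_mem_cons.2 ⟨(comm_io m1037s0 (l := 4) rfl cv1115), (List.forall_mem_cons.2 ⟨cv1116, (List.forall_mem_cons.2 ⟨(comm_io m1037s0 (l := 6) rfl cv1116), (List.forall_mem_cons.2 ⟨cv1117, (List.forall_mem_cons.2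 ⟨(comm_io m1037s0 (l := 8) rfl cv1117), (List.forall_mem_cons.2 ⟨cv1118, (List.forall_mem_cons.2 ⟨(comm_io m1037s0 (l := 10) rfl cv1118), (List.forall_mem_cons.2 ⟨cv1119, (List.forall_mem_cons.2 ⟨(comm_io m1037s0 (l := 12) rfl cv1119), (by simp)⟩)⟩)⟩)⟩)⟩)⟩)⟩)⟩)⟩)⟩)⟩)⟩)⟩)⟩), (by simp)⟩)⟩) cv1105 lb1064
theorem schur : HasCyclicSchurMultiplier Spor.Fi22 6 := hasCyc_of (a := 1) (b := 1) (pm2.mono (by norm_num)) (pm3.mono (by norm_num)) (PM.ge5 Fi.cardFi22 (fl := [2,2,2,2,2,2,2,2,2,2,2,2,2,2,2,2,2,3,3,3,3,3,3,3,3,3,5,5,7,11,13]) (l := [5]) (List.forall_mem_cons.2 ⟨pm5, (by simp)⟩) (by decide +kernel)) cov (by norm_num)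

end Cfsg.Agent.H6.ScFi22
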