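import Cfsg.Agent.H6.ScD3
set_option maxRecDepth 100000
set_option Elab.async false
namespace Cfsg.Agent.H6.ScFi23
open Cfsg.Agent.H6
universe u

noncomputable def wX0 : List ℕ := [3,4,2,3,4,8,7,3,2,4,3,5,7,8,1,2,3,4,7,3,8,7,6,5,4,3,2,1,7,3,2,4,3,5,4,8,7,3,2,4,3,0,1,2,3,4,5,6,7,3,2,1,0,4,3,5,4,7,3,8,7,3,2,1,0,4,3,2,5,4,3,6,5]
theorem rpX0 : Rep 31671 (finX 31671) (wp Fi.gFi23 wX0) (m2 0) := Fi.modelFi23.toIsPre.rep_word (k := 15) (by decide +kernel)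
theorem rqX0 : Rep 31671 (finX 31671) (wp Fi.gFi23 wX0)⁻¹ (m2 1) := rpX0.inv2 m2ok m2s0 rfl
noncomputable def wX6 : List ℕ := [1,2,3,7,4,5,2,3,4,1,2,3,7,8,4,5,2,3,4,0,1,2,3,7,6,5,4,3,2,1,0,7,3,4,2,3,7,1,2,3,4,5,6,1,2,3,7,8,3,7,2,3,4,1,2,3,7,5,4,3,2,1,4,3,7,5,4,3,2,5,7,3]
theorem rpX6 : Rep 31671 (finX 31671) (wp Fi.gFi23 wX6) (m2 6) := Fi.modelFi23.toIsPre.rep_word (k := 15) (by decide +kernel)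
theorem rqX6 : Rep 31671 (finX 31671) (wp Fi.gFi23 wX6)⁻¹ (m2 7) := rpX6.inv2 m2ok m2s0 rfl
noncomputable def wX12 : List ℕ := [5,4,3,7,2,3,4,1,2,3,7,8,3,4,5,2,3,4,1,2,3,7,6,5,4,3,2,1,0,1,2,3,4,5,6,7,8,3,4,2,3,7,5,4,3,2,1,2,3,7,4,3,2,7,3,4,5]
theorem rpX12 : Rep 31671 (finX 31671) (wp Fi.gFi23 wX12) (m2 12) := Fi.modelFi23.toIsPre.rep_word (k := 15) (by decide +kernel)
theorem rqX12 : Rep 31671 (finX 31671) (wp Fi.gFi23 wX12)⁻¹ (m2 13) := rpX12.inv2 m2ok m2s0 rfl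

end Cfsg.Agent.H6.ScFi23
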