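import Cfsg.Agent.H6.ScD3
set_option maxRecDepth 100000
set_option Elab.async false
namespace Cfsg.Agent.H6.ScFi23
open Cfsg.Agent.H6
universe u

noncomputable def wX2 : List ℕ := [8,3,7,2,3,4,1,2,3,7,8,5,3,4,2,3,7,6,5,4,3,2,1,0,5,4,3,7,8,7,6,5,3,4,2,3,7,1,2,3,4,5,6,3,7,2,3,4,1,2,3,7,8,7,3,4,1,2,3,7,5,4,3,2,1,2,3,7,4,5,3,4,2,3,7,8,7,4,3,2,3,4,7]
theorem rpX2 : Rep 31671 (finX 31671) (wp Fi.gFi23 wX2) (m2 2) := Fi.modelFi23.toIsPre.rep_word (k := 15) (by decide +kernel)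
theorem rqX2 : Rep 31671 (finX 31671) (wp Fi.gFi23 wX2)⁻¹ (m2 3) := rpX2.inv2 m2ok m2s0 rfl
noncomputable def wX8 : List ℕ := [0,1,2,3,7,4,5,3,4,2,3,7,1,2,3,4,0,1,2,3,7,5,4,3,2,1,0,6,5,4,3,7,2,3,4,1,2,3,7,5,4,3,2,1,7,3,4,2,3,7,5,4,3,2,7,3,4,5,7,3,4,7,3,7]
theorem rpX8 : Rep 31671 (finX 31671) (wp Fi.gFi23 wX8) (m2 8) := Fi.modelFi23.toIsPre.rep_word (k := 15) (by decide +kernel)
theorem rqX8 : Rep 31671 (finX 31671) (wp Fi.gFi23 wX8)⁻¹ (m2 9) := rpX8.inv2 m2ok m2s0 rfl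
noncomputable def wX14 : List ℕ := [2,3,7,8,1,2,3,7,4,3,2,1,0,1,2,3,7,4,3,2,1,8,7,3,2]
theorem rpX14 : Rep 31671 (finX 31671) (wp Fi.gFi23 wX14) (m2 14) := Fi.modelFi23.toIsPre.rep_word (k := 15) (by decide +kernel)
theorem rqX14 : Rep 31671 (finX 31671) (wp Fi.gFi23 wX14)⁻¹ (m2 15) := rpX14.inv2 m2ok m2s0 rfl

end Cfsg.Agent.H6.ScFi23
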