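import Cfsg.Agent.H6.ScD3
set_option maxRecDepth 100000
set_option Elab.async false
namespace Cfsg.Agent.H6.ScFi23
open Cfsg.Agent.H6
universe u

noncomputable def wX4 : List ℕ := [3,7,5,4,3,7,2,3,8,7,3,4,1,2,3,4,5,7,3,2,4,8,6,5,4,3,2,1,7,3,2,4,3,5,8,7,3,2,1,4,3,0,1,2,3,4,5,6,7,3,2,1,0,4,3,5,4,8,7,3,2,1,0,4,3,2,1,5,4,3,2,7,3,2,4,3,8,7,3,2,1,4,3,2,5,4,6,5]
theorem rpX4 : Rep 31671 (finX 31671) (wp Fi.gFi23 wX4) (m2 4) := Fi.modelFi23.toIsPre.rep_word (k := 15) (by decide +kernel)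
theorem rqX4 : Rep 31671 (finX 31671) (wp Fi.gFi23 wX4)⁻¹ (m2 5) := rpX4.inv2 m2ok m2s0 rfl
noncomputable def wX10 : List ℕ := [0,1,2,3,7,4,5,3,4,2,3,7,1,2,3,4,0,1,2,3,7,5,4,3,2,1,0,6,5,4,3,7,2,3,4,1,2,3,7,5,6,4,5,3,4,2,3,7,1,2,3,4,5,6]
theorem rpX10 : Rep 31671 (finX 31671) (wp Fi.gFi23 wX10) (m2 10) := Fi.modelFi23.toIsPre.rep_word (k := 15) (by decide +kernel)
theorem rqX10 : Rep 31671 (finX 31671) (wp Fi.gFi23 wX10)⁻¹ (m2 11) := rpX10.inv2 m2ok m2s0 rfl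
noncomputable def wX16 : List ℕ := [9,6,5,4,3,7,2,3,4,5,6,9,5,4,2,3,7,8,5,6,4,5,3,4,2,3,7,1,2,3,4,5,6,3,7,2,3,4,1,2,3,7,8,7,3,4,2,3,7,5,4,3,2,1,4,5,3,4,2,3,7,8,4,2,3,7,5,4,3,2,7,3,4,5]
theorem rpX16 : Rep 31671 (finX 31671) (wp Fi.gFi23 wX16) (m2 16) := Fi.modelFi23.toIsPre.rep_word (k := 15) (by decide +kernel)
theorem rqX16 : Rep 31671 (finX 31671) (wp Fi.gFi23 wX16)⁻¹ (m2 17) := rpX16.inv2 m2ok m2s0 rfl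

end Cfsg.Agent.H6.ScFi23
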