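import Cfsg.Agent.H6.ScD4
import Cfsg.Agent.H6.ScD5
import Cfsg.Agent.H6.ScD6
set_option maxRecDepth 100000
set_option Elab.async false
namespace Cfsg.Agent.H6.ScFi23
open Cfsg.Agent.H6
universe u

noncomputable def glX : List Spor.Fi23 := [wp Fi.gFi23 wX0,(wp Fi.gFi23 wX0)⁻¹,wp Fi.gFi23 wX2,(wp Fi.gFi23 wX2)⁻¹,wp Fi.gFi23 wX4,(wp Fi.gFi23 wX4)⁻¹,wp Fi.gFi23 wX6,(wp Fi.gFi23 wX6)⁻¹,wp Fi.gFi23 wX8,(wp Fi.gFi23 wX8)⁻¹,wp Fi.gFi23 wX10,(wp Fi.gFi23 wX10)⁻¹,wp Fi.gFi23 wX12,(wp Fi.gFi23 wX12)⁻¹,wp Fi.gFi23 wX14,(wp Fi.gFi23 wX14)⁻¹,wp Fi.gFi23 wX16,(wp Fi.gFi23 wX16)⁻¹]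
noncomputable def gX : ℕ → Spor.Fi23 := lk 1 glX
theorem modelX : IsModel 31671 (finX 31671) gX m2 vT := ⟨IsPre.ofLists (.cons rpX0 (.cons rqX0 (.cons rpX2 (.cons rqX2 (.cons rpX4 (.cons rqX4 (.cons rpX6 (.cons rqX6 (.cons rpX8 (.cons rqX8 (.cons rpX10 (.cons rqX10 (.cons rpX12 (.cons rqX12 (.cons rpX14 (.cons rqX14 (.cons rpX16 (.cons rqX16 .nil)))))))))))))))))), Fi.modelFi23.inj⟩
theorem hgeX : ∀ l, llen il ≤ l → gX l = 1 := fun _ h => lk1_ge' (gl := glX) (le_of_eq_of_le rfl h)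
theorem heqX : ∀ u w, eqBc m2 Fi.baseFi23 u w = true → wp gX u = wp gX w := Fi.basedFi23.eqv modelX.toIsPre
theorem s0X : Sat io [] gX := sat_of_eqv heqX hgeX (by decide +kernel)

end Cfsg.Agent.H6.ScFi23
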