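/- The derived subgroup of index two; generators of ²F₄(2). -/
import Cfsg.Agent.H6.Sch12
import Cfsg.Prelude.Def_LieTwisted

namespace Cfsg.Agent.H6
open Matrix
open scoped commutatorElement

theorem Bound.equiv_comm {G T : Type} [Group G] [Group T] [Finite G] {ι : ℕ → ℕ} {R : List (List ℕ)}
    {kl : List ℕ} {B : ℕ} {gens : ℕ → G} {g : ℕ → T} (hb : Bound.{0} ι R kl B) (s : Sat ι R gens) (s' : Sat ι R g)
    (ht : cl gens (lw kl) = ⊤) (hB : Nat.card G = B) (hs : IsSimpleGroup G) {x y : G} (hxy : x * y ≠ y * x)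
    (hT : Nat.card T = 2 * B) {u : List ℕ} (hu : wok (tb (mkM kl)) u = true) (hne : wp g u ≠ wp g []) :
    (commutator T).index = 2 ∧ Nonempty (G ≃* commutator T) := by
  obtain ⟨φ, -, b⟩ := hb.homTop s s' ht hB.ge
  have hi : Function.Injective φ := by
    rcases hs.eq_bot_or_eq_top_of_normal φ.ker inferInstance with h | h
    · exact (MonoidHom.ker_eq_bot_iff φ).1 h
    · exact absurd ((b u hu).symm.trans (MonoidHom.mem_ker.1 (h ▸ Subgroup.mem_top _))) hne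
  have hc : Nat.card φ.range = B := (Nat.card_congr (MonoidHom.ofInjective hi).toEquiv).symm.trans hB
  have h0 : 0 < B := hB ▸ Nat.card_pos
  have h2 : φ.range.index = 2 := by
    have := φ.range.index_mul_card
    rw [hc, hT] at this
    exact Nat.eq_of_mul_eq_mul_right h0 this
  have hp : commutator G = ⊤ := (hs.eq_bot_or_eq_top_of_normal _ inferInstance).resolve_left fun h => hxy (by
    have : ⁅x, y⁆ ∈ commutator G := Subgroup.commutator_mem_commutator (Subgroup.mem_top _) (Subgroup.mem_top _)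
    rw [h, Subgroup.mem_bot] at this
    exact commutatorElement_eq_one_iff_mul_comm.1 this)
  have e : commutator T = φ.range := by
    refine le_antisymm ((Subgroup.commutator_le).2 fun a _ c _ => ?_) ?_
    · rw [commutatorElement_def, Subgroup.mul_mem_iff_of_index_two h2, Subgroup.mul_mem_iff_of_index_two h2,
        Subgroup.mul_mem_iff_of_index_two h2, Subgroup.inv_mem_iff, Subgroup.inv_mem_iff]
      tauto
    · rw [MonoidHom.range_eq_map, ← hp, commutator_def, Subgroup.map_commutator]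
      exact Subgroup.commutator_mono le_top le_top
  exact ⟨e ▸ h2, ⟨(MonoidHom.ofInjective hi).trans (MulEquiv.subgroupCongr e.symm)⟩⟩

namespace Ti
open Lie
abbrev TT : Type := twistedF4 (ZMod 2) 1
abbrev rho : TT →* Matrix chevF4.Idx chevF4.Idx (ZMod 2) := (Units.coeHom _).comp (twistedF4 (ZMod 2) 1).subtype
theorem rho_inj : Function.Injective rho := Units.val_injective.comp Subtype.val_injective

theorem x_zero (r : ℕ) {X : List ℕ} (hr : r < chevF4.nroots) (h : XOk chevF4 (cdP 2) 2 ⟨r, hr⟩ 0 X)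
    (e : X = idm 2 52) : chevF4.x (ZMod 2) r 0 = 1 := by
  have := h.eq (p := 2) (semP (F := ZMod 2) 2 (by norm_num)) (by norm_num) le_rfl (fun _ _ => rfl)
  rw [ChevalleyDatum.x, dif_pos hr, ← Nat.cast_zero, ← this, e]
  exact (semP (F := ZMod 2) 2 (by norm_num)).idm

theorem x_one {g : ℕ → GL chevF4.Idx (ZMod 2)} {ms : ℕ → List ℕ}
    (hg : MRep (ixChev chevF4) (cdP 2) Nat.cast (Units.coeHom _) g ms) (l r : ℕ) (hr : r < chevF4.nroots)
    (h : XOk chevF4 (cdP 2) 2 ⟨r, hr⟩ 1 (ms l)) : chevF4.x (ZMod 2) r 1 = (g l : Matrix _ _ _) := by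
  have := h.eq (p := 2) (semP (F := ZMod 2) 2 (by norm_num)) (by norm_num) le_rfl (fun _ _ => rfl)
  rw [ChevalleyDatum.x, dif_pos hr, ← Nat.cast_one, ← this]
  exact (hg.2.2 l).2.symm

theorem base {g : ℕ → GL chevF4.Idx (ZMod 2)} {ms : ℕ → List ℕ}
    (hg : MRep (ixChev chevF4) (cdP 2) Nat.cast (Units.coeHom _) g ms)
    (h : ∀ p ∈ [(0, 33), (1, 24), (2, 14), (3, 23), (4, 27), (5, 25), (6, 28), (7, 20), (8, 22), (9, 19)],
      chevF4.x (ZMod 2) p.2 1 = (g p.1 : Matrix _ _ _))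
    (z1 : chevF4.x (ZMod 2) 30 0 = 1) (z2 : chevF4.x (ZMod 2) 17 0 = 1) :
    ∀ w ∈ [[0, 1], [2, 3], [4, 5, 6], [7, 8, 9]], wp g w ∈ twistedF4 (ZMod 2) 1 := by
  simp only [List.forall_mem_cons] at h ⊢
  obtain ⟨h0, h1, h2, h3, h4, h5, h6, h7, h8, h9, -⟩ := h
  refine ⟨Subgroup.subset_closure ⟨_, .inl ⟨1, .inl rfl⟩, ?_⟩, Subgroup.subset_closure ⟨_, .inl ⟨1, .inr rfl⟩, ?_⟩,
    Subgroup.subset_closure ⟨_, .inr ⟨1, 0, .inl rfl⟩, ?_⟩, Subgroup.subset_closure ⟨_, .inr ⟨1, 0, .inr rfl⟩, ?_⟩, by simp⟩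
  · simp [ChevalleyDatum.wordMat, f4PairWord, f4p1, f4p4, h0, h1]
  · simp [ChevalleyDatum.wordMat, f4PairWord, f4m1, f4m4, h2, h3]
  · simp [ChevalleyDatum.wordMat, b2ClassWord, f4a, f4b, f4ab, f4aab, h4, h5, h6, z1]
  · simp [ChevalleyDatum.wordMat, b2ClassWord, f4ma, f4mb, f4mab, f4maab, h7, h8, h9, z2]

theorem mrep {g : ℕ → GL chevF4.Idx (ZMod 2)} {ms : ℕ → List ℕ}
    (hg : MRep (ixChev chevF4) (cdP 2) Nat.cast (Units.coeHom _) g ms) {ws ml : List (List ℕ)}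
    (h : ∀ w ∈ ws, wp g w ∈ twistedF4 (ZMod 2) 1) (hl : lall (fun X => Nat.ble (llen X) 52) ml = true)
    (hc : ∀ X ∈ ml, ∃ s, (cdP 2).isM 52 ms (sel ws s) X = true) :
    ∃ g', MRep (ixChev chevF4) (cdP 2) Nat.cast rho g' (lk (idm 2 52) ml) :=
  exists_mrep hg.1 rho_inj hl fun X hX => by
    obtain ⟨s, e⟩ := hc X hX
    exact ⟨⟨_, cl_le.2 h (wp_sel_mem ws s)⟩, hg.isM e⟩

end Ti
end Cfsg.Agent.H6
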