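import Cfsg.Agent.H6.TiC1
set_option maxRecDepth 100000
set_option Elab.async false
namespace Cfsg.Agent.H6.Ti
open Cfsg.Agent.H6
universe u

theorem xo0 : XOk Lie.chevF4 (cdP 2) 2 ⟨33, by decide⟩ 1 (lk (idm 2 52) bT 0) := ⟨by decide, by decide +kernel⟩
theorem xo4 : XOk Lie.chevF4 (cdP 2) 2 ⟨27, by decide⟩ 1 (lk (idm 2 52) bT 4) := ⟨by decide, by decide +kernel⟩
theorem xo8 : XOk Lie.chevF4 (cdP 2) 2 ⟨22, by decide⟩ 1 (lk (idm 2 52) bT 8) := ⟨by decide, by decide +kernel⟩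
theorem k1 : band (lall (fun X => Nat.ble (llen X) 52) bT) (lall2 ((cdP 2).invC 52) bT bT) = true := by decide +kernel
theorem kb3 : (cdP 2).isM 52 (lk (idm 2 52) bT) (sel [[0,1],[2,3],[4,5,6],[7,8,9]] [3]) (lk (idm 2 52) b4 3) = true := by decide +kernel
theorem kw3 : (cdP 2).isM 52 (lk (idm 2 52) b4) [1,3,2,0,2,1,3,0,2,2,0,2,0,2,1,0,2,3,3,1,3] (lk (idm 2 52) mT 3) = true := by decide +kernel
theorem kr7 : (cdP 2).one 52 (lk (idm 2 52) mT) r7 = true := by decide +kernel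
theorem kr6 : (cdP 2).one 52 (lk (idm 2 52) mT) r6 = true := by decide +kernel
theorem kr3 : (cdP 2).one 52 (lk (idm 2 52) mT) r3 = true := by decide +kernel
theorem kr9 : (cdP 2).one 52 (lk (idm 2 52) mT) r9 = true := by decide +kernel
theorem kr1 : (cdP 2).one 52 (lk (idm 2 52) mT) r1 = true := by decide +kernel

end Cfsg.Agent.H6.Ti
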