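import Cfsg.Agent.H6.TiC1
set_option maxRecDepth 100000
set_option Elab.async false
namespace Cfsg.Agent.H6.Ti
open Cfsg.Agent.H6
universe u

theorem xo1 : XOk Lie.chevF4 (cdP 2) 2 ⟨24, by decide⟩ 1 (lk (idm 2 52) bT 1) := ⟨by decide, by decide +kernel⟩
theorem xo5 : XOk Lie.chevF4 (cdP 2) 2 ⟨25, by decide⟩ 1 (lk (idm 2 52) bT 5) := ⟨by decide, by decide +kernel⟩
theorem xo9 : XOk Lie.chevF4 (cdP 2) 2 ⟨19, by decide⟩ 1 (lk (idm 2 52) bT 9) := ⟨by decide, by decide +kernel⟩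
theorem kb0 : (cdP 2).isM 52 (lk (idm 2 52) bT) (sel [[0,1],[2,3],[4,5,6],[7,8,9]] [0]) (lk (idm 2 52) b4 0) = true := by decide +kernel
theorem kw0 : (cdP 2).isM 52 (lk (idm 2 52) b4) [3,0,2,0,2,1,0,2,0,2,3,1,3,1,3,3,0,2] (lk (idm 2 52) mT 0) = true := by decide +kernel
theorem kw4 : (cdP 2).isM 52 (lk (idm 2 52) b4) [3,3,1,0,2,0,3,2,2,0,2,3,0,1,3,3] (lk (idm 2 52) mT 4) = true := by decide +kernel
theorem kr13 : (cdP 2).one 52 (lk (idm 2 52) mT) r13 = true := by decide +kernel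
theorem kr12 : (cdP 2).one 52 (lk (idm 2 52) mT) r12 = true := by decide +kernel
theorem kr14 : (cdP 2).one 52 (lk (idm 2 52) mT) r14 = true := by decide +kernel
theorem kr2 : (cdP 2).one 52 (lk (idm 2 52) mT) r2 = true := by decide +kernel
theorem kr8 : (cdP 2).one 52 (lk (idm 2 52) mT) r8 = true := by decide +kernel

end Cfsg.Agent.H6.Ti
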