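import Cfsg.Agent.H6.TiC1
set_option maxRecDepth 100000
set_option Elab.async false
namespace Cfsg.Agent.H6.Ti
open Cfsg.Agent.H6
universe u

theorem xo2 : XOk Lie.chevF4 (cdP 2) 2 ⟨14, by decide⟩ 1 (lk (idm 2 52) bT 2) := ⟨by decide, by decide +kernel⟩
theorem xo6 : XOk Lie.chevF4 (cdP 2) 2 ⟨28, by decide⟩ 1 (lk (idm 2 52) bT 6) := ⟨by decide, by decide +kernel⟩
theorem zo30 : XOk Lie.chevF4 (cdP 2) 2 ⟨30, by decide⟩ 0 (idm 2 52) := ⟨by decide, by decide +kernel⟩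
theorem kb1 : (cdP 2).isM 52 (lk (idm 2 52) bT) (sel [[0,1],[2,3],[4,5,6],[7,8,9]] [1]) (lk (idm 2 52) b4 1) = true := by decide +kernel
theorem kw1 : (cdP 2).isM 52 (lk (idm 2 52) b4) [2,3,2,2,1,0,2,1,3,3,0,2,3,0,2,1,3,3,1,3,2] (lk (idm 2 52) mT 1) = true := by decide +kernel
theorem kw5 : (cdP 2).isM 52 (lk (idm 2 52) b4) [3,3,1,0,2,0,3,2,2,0,2,3,0,1,3,3] (lk (idm 2 52) mT 5) = true := by decide +kernel
theorem kr4 : (cdP 2).one 52 (lk (idm 2 52) mT) r4 = true := by decide +kernel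
theorem kr16 : (cdP 2).one 52 (lk (idm 2 52) mT) r16 = true := by decide +kernel
theorem kr15 : (cdP 2).one 52 (lk (idm 2 52) mT) r15 = true := by decide +kernel
theorem kr10 : (cdP 2).one 52 (lk (idm 2 52) mT) r10 = true := by decide +kernel

end Cfsg.Agent.H6.Ti
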