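import Cfsg.Agent.H6.TiC1
set_option maxRecDepth 100000
set_option Elab.async false
namespace Cfsg.Agent.H6.Ti
open Cfsg.Agent.H6
universe u

theorem xo3 : XOk Lie.chevF4 (cdP 2) 2 ⟨23, by decide⟩ 1 (lk (idm 2 52) bT 3) := ⟨by decide, by decide +kernel⟩
theorem xo7 : XOk Lie.chevF4 (cdP 2) 2 ⟨20, by decide⟩ 1 (lk (idm 2 52) bT 7) := ⟨by decide, by decide +kernel⟩
theorem zo17 : XOk Lie.chevF4 (cdP 2) 2 ⟨17, by decide⟩ 0 (idm 2 52) := ⟨by decide, by decide +kernel⟩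
theorem kb2 : (cdP 2).isM 52 (lk (idm 2 52) bT) (sel [[0,1],[2,3],[4,5,6],[7,8,9]] [2]) (lk (idm 2 52) b4 2) = true := by decide +kernel
theorem kw2 : (cdP 2).isM 52 (lk (idm 2 52) b4) [1,3,2,0,2,1,3,0,2,2,0,2,0,2,1,0,2,3,3,1,3] (lk (idm 2 52) mT 2) = true := by decide +kernel
theorem kr18 : (cdP 2).one 52 (lk (idm 2 52) mT) r18 = true := by decide +kernel
theorem kr5 : (cdP 2).one 52 (lk (idm 2 52) mT) r5 = true := by decide +kernel
theorem kr17 : (cdP 2).one 52 (lk (idm 2 52) mT) r17 = true := by decide +kernel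
theorem kr0 : (cdP 2).one 52 (lk (idm 2 52) mT) r0 = true := by decide +kernel
theorem kr11 : (cdP 2).one 52 (lk (idm 2 52) mT) r11 = true := by decide +kernel

end Cfsg.Agent.H6.Ti
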