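import Cfsg.Agent.H6.TiC2
import Cfsg.Agent.H6.TiC3
import Cfsg.Agent.H6.TiC4
import Cfsg.Agent.H6.TiC5
set_option maxRecDepth 100000
set_option Elab.async false
namespace Cfsg.Agent.H6.Ti
open Cfsg.Agent.H6
universe u

theorem hxy : wp gT [0] * wp gT [2] ≠ wp gT [2] * wp gT [0] := by
  rw [← wp_lapp, ← wp_lapp]; exact modelT.ne_of_mp (p := 0) (by decide +kernel)
theorem main : (commutator TT).index = 2 ∧ Nonempty (GT ≃* Lie.TitsGroup) := by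
  obtain ⟨g0, hg0⟩ := mrep_GL (semP (F := ZMod 2) 2 (by norm_num)) (ixChev Lie.chevF4) k1
  have hb := base hg0 (List.forall_mem_cons.2 ⟨x_one hg0 _ _ _ xo0, (List.forall_mem_cons.2 ⟨x_one hg0 _ _ _ xo1, (List.forall_mem_cons.2 ⟨x_one hg0 _ _ _ xo2, (List.forall_mem_cons.2 ⟨x_one hg0 _ _ _ xo3, (List.forall_mem_cons.2 ⟨x_one hg0 _ _ _ xo4, (List.forall_mem_cons.2 ⟨x_one hg0 _ _ _ xo5, (List.forall_mem_cons.2 ⟨x_one hg0 _ _ _ xo6, (List.forall_mem_cons.2 ⟨x_one hg0 _ _ _ xo7, (List.forall_mem_cons.2 ⟨x_one hg0 _ _ _ xo8, (List.forall_mem_cons.2 ⟨x_one hg0 _ _ _ xo9, (by simp)⟩)⟩)⟩)⟩)⟩)⟩)⟩)⟩)⟩)⟩) (x_zero _ _ zo30 rfl) (x_zero _ _ zo17 rfl)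
  obtain ⟨g1, hg1⟩ := mrep hg0 hb (ml := b4) (by decide +kernel) (List.forall_mem_cons.2 ⟨⟨_, kb0⟩, (List.forall_mem_cons.2 ⟨⟨_, kb1⟩, (List.forall_mem_cons.2 ⟨⟨_, kb2⟩, (List.forall_mem_cons.2 ⟨⟨_, kb3⟩, (by simp)⟩)⟩)⟩)⟩)
  obtain ⟨g, hg⟩ := exists_mrep hg1.1 hg1.2.1 (ml := mT) (by decide +kernel) (List.forall_mem_cons.2 ⟨⟨_, hg1.isM kw0⟩, (List.forall_mem_cons.2 ⟨⟨_, hg1.isM kw1⟩, (List.forall_mem_cons.2 ⟨⟨_, hg1.isM kw2⟩, (List.forall_mem_cons.2 ⟨⟨_, hg1.isM kw3⟩, (List.forall_mem_cons.2 ⟨⟨_, hg1.isM kw4⟩, (List.forall_mem_cons.2 ⟨⟨_, hg1.isM kw5⟩, (by simp)⟩)⟩)⟩)⟩)⟩)⟩)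
  have hT : Nat.card TT = 2 * 17971200 := (S1068.result (K := ZMod 2) (m := 0) (by simp)).trans (by norm_num)
  exact bdT.equiv_comm satT ((((((((((((((((((((hg.sat (il := il) (Rl := []) (by decide +kernel)).cons (hg.one kr18)).cons (hg.one kr17)).cons (hg.one kr16)).cons (hg.one kr15)).cons (hg.one kr14)).cons (hg.one kr13)).cons (hg.one kr12)).cons (hg.one kr11)).cons (hg.one kr10)).cons (hg.one kr9)).cons (hg.one kr8)).cons (hg.one kr7)).cons (hg.one kr6)).cons (hg.one kr5)).cons (hg.one kr4)).cons (hg.one kr3)).cons (hg.one kr2)).cons (hg.one kr1)).cons (hg.one kr0)) topT cardT simpleT hxy hT (u := [0]) (by decide +kernel) (hg.nev (injP 2) (i := 0) (j := 1) (by decide +kernel))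

end Cfsg.Agent.H6.Ti
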